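import Cfsg.Agent.InvTwo.SymForm

/-!
The orthogonal group of the unit symmetric bilinear form in characteristic two.
-/

set_option autoImplicit false

open Matrix

namespace CfsgLib.InvTwo

variable (F : Type*) [Field F] [Fintype F]

/-- Orthogonal matrices. -/
abbrev Orth (n : ℕ) := {A : Matrix (Fin n) (Fin n) F // A * Aᵀ = 1}

/-- The order of the symplectic group. -/
def spOrd (q j : ℕ) : ℕ := q ^ (j ^ 2) * ∏ i ∈ Finset.range j, (q ^ (2 * (i + 1)) - 1)

variable {F} (h2 : (2 : F) = 0)
include h2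

theorem dot_self {n : ℕ} (v : Fin n → F) : v ⬝ᵥ v = (∑ i, v i) ^ 2 := by
  classical
  have : ∀ S : Finset (Fin n), (∑ i ∈ S, v i) ^ 2 = ∑ i ∈ S, v i * v i := fun S => by
    induction S using Finset.induction_on with
    | empty => simp
    | insert j S hj ih =>
      rw [Finset.sum_insert hj, Finset.sum_insert hj, ← ih]
      linear_combination (v j * ∑ i ∈ S, v i) * h2
  rw [this]; rfl

theorem dot_self_one_iff {n : ℕ} (v : Fin n → F) : v ⬝ᵥ v = 1 ↔ ∑ i, v i = 1 := by
  rw [dot_self h2, sq_eq_one_iff]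
  refine ⟨fun h => h.elim id fun h => ?_, .inl⟩
  linear_combination h - h2

theorem exists_row {n : ℕ} {v : Fin (n + 1) → F} (hv : ∑ i, v i = 1) (hne : n = 0 ∨ v ≠ fun _ => 1) :
    ∃ A : Orth F (n + 1), A.1 0 = v := by
  classical
  have hvv : v ⬝ᵥ v = 1 := (dot_self_one_iff h2 v).2 hv
  let L : (Fin (n + 1) → F) →ₗ[F] F :=
    { toFun := fun x => x ⬝ᵥ v, map_add' := fun x y => add_dotProduct x y v,
      map_smul' := fun c x => smul_dotProduct c x v }
  let W := LinearMap.ker L
  have hW : ∀ x, x ∈ W ↔ x ⬝ᵥ v = 0 := fun x => LinearMap.mem_ker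
  let β : W →ₗ[F] W →ₗ[F] F := LinearMap.mk₂ F (fun x y => (x : Fin (n + 1) → F) ⬝ᵥ y)
    (fun x y z => by simp [add_dotProduct]) (fun c x y => by simp) (fun x y z => by simp [dotProduct_add])
    (fun c x y => by simp)
  rcases Nat.eq_zero_or_pos n with rfl | hn
  · refine ⟨⟨1, by simp⟩, funext fun i => ?_⟩
    obtain rfl : i = 0 := Fin.ext (by omega)
    simpa using hv.symm
  have hv1 : v ≠ fun _ => 1 := hne.resolve_left (by omega)
  obtain ⟨i, hi⟩ : ∃ i, v i ≠ 1 := by
    by_contra hh
    push Not at hh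
    exact hv1 (funext hh)
  have hna : ∃ x, β x x ≠ 0 := by
    refine ⟨⟨Pi.single i 1 + v i • v, (hW _).2 ?_⟩, ?_⟩
    · rw [add_dotProduct, smul_dotProduct, hvv, single_dotProduct, one_mul, smul_eq_mul, mul_one]
      linear_combination v i * h2
    · show (Pi.single i 1 + v i • v) ⬝ᵥ (Pi.single i 1 + v i • v) ≠ 0
      rw [dot_self h2]
      refine pow_ne_zero 2 ?_
      simp only [Pi.add_apply, Pi.smul_apply, smul_eq_mul, Finset.sum_add_distrib, ← Finset.mul_sum, hv, mul_one,
        Finset.sum_pi_single', Finset.mem_univ, if_true]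
      exact fun h => hi (by linear_combination h - h2)
  obtain ⟨k, b, hb, hr⟩ := exists_orthonormal h2 _ W le_rfl β (fun x y => dotProduct_comm (x : Fin (n + 1) → F) y) hna
  have hinj : ∀ x : W, (∀ j, β x (b j) = 0) → x = 0 := fun x hx => by
    have hx' := hr x hx
    refine Subtype.ext (funext fun j => ?_)
    have h1 := LinearMap.congr_fun hx' ⟨Pi.single j 1 - v j • v, (hW _).2 (by
      rw [sub_dotProduct, smul_dotProduct, hvv, single_dotProduct, one_mul, smul_eq_mul, mul_one, sub_self])⟩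
    change (x : Fin (n + 1) → F) ⬝ᵥ (Pi.single j 1 - v j • v) = 0 at h1
    rw [dotProduct_sub, dotProduct_smul, (hW _).1 x.2, dotProduct_single, mul_one, smul_zero, sub_zero] at h1
    exact h1
  let Φ : W →ₗ[F] (Fin k → F) := LinearMap.pi fun j => β.flip (b j)
  have hΦi : Function.Injective Φ := (injective_iff_map_eq_zero Φ).2 fun x hx => hinj x fun j => congrFun hx j
  have hΦs : Function.Surjective Φ := fun c => by
    refine ⟨∑ j, c j • b j, funext fun l => ?_⟩
    simp only [Φ, LinearMap.pi_apply, LinearMap.flip_apply, map_sum, map_smul, LinearMap.sum_apply,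
      LinearMap.smul_apply, hb, smul_eq_mul, mul_ite, mul_one, mul_zero, Finset.sum_ite_eq, Finset.mem_univ, if_true]
  have hk : k = n := by
    have h1 := (LinearEquiv.ofBijective Φ ⟨hΦi, hΦs⟩).finrank_eq
    have h3 := L.finrank_range_add_finrank_ker
    have hL : LinearMap.range L = ⊤ := LinearMap.range_eq_top.2 fun c => ⟨c • v, by
      show (c • v) ⬝ᵥ v = c
      rw [smul_dotProduct, hvv, smul_eq_mul, mul_one]⟩
    rw [hL, finrank_top, Module.finrank_self, Module.finrank_fintype_fun_eq_card, Fintype.card_fin] at h3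
    rw [Module.finrank_fintype_fun_eq_card, Fintype.card_fin] at h1
    change 1 + Module.finrank F W = n + 1 at h3
    omega
  subst hk
  refine ⟨⟨Matrix.of (Fin.cons v fun j => (b j : Fin (k + 1) → F)), ?_⟩, rfl⟩
  ext p q
  rw [Matrix.mul_apply']
  simp only [Matrix.transpose_apply]
  change ((Fin.cons v (fun j => (b j : Fin (k + 1) → F)) : Fin (k + 1) → Fin (k + 1) → F) p) ⬝ᵥ
    ((Fin.cons v (fun j => (b j : Fin (k + 1) → F)) : Fin (k + 1) → Fin (k + 1) → F) q) = _
  cases p using Fin.cases with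
  | zero => cases q using Fin.cases with
    | zero => simpa using hvv
    | succ q => simpa [(Fin.succ_ne_zero q).symm, dotProduct_comm] using (hW _).1 (b q).2
  | succ p => cases q using Fin.cases with
    | zero => simpa [Fin.succ_ne_zero p] using (hW _).1 (b p).2
    | succ q =>
      have e : (b p : Fin (k + 1) → F) ⬝ᵥ (b q : Fin (k + 1) → F) = if q = p then 1 else 0 := hb p q
      simpa [Matrix.one_apply, Fin.succ_inj, eq_comm] using e

theorem row_ne_one {n : ℕ} (hn : n ≠ 0) (A : Orth F (n + 1)) : A.1 0 ≠ fun _ => 1 := fun h => by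
  obtain ⟨i, hi⟩ : ∃ i : Fin (n + 1), i ≠ 0 := ⟨⟨1, by omega⟩, by simp [Fin.ext_iff]⟩
  have e1 := congrFun (congrFun A.2 i) i
  have e2 := congrFun (congrFun A.2 i) 0
  rw [Matrix.mul_apply', Matrix.one_apply_eq] at e1
  rw [Matrix.mul_apply', Matrix.one_apply_ne hi] at e2
  simp only [Matrix.transpose_apply] at e1 e2
  rw [show (fun j => A.1 i j) = A.1 i from rfl, dot_self_one_iff h2] at e1
  rw [show (fun j => A.1 0 j) = A.1 0 from rfl, h, dotProduct] at e2
  simp only [mul_one] at e2
  exact one_ne_zero (e1.symm.trans e2)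

omit h2 in
theorem card_row_fixed (n : ℕ) :
    Nat.card {A : Orth F (n + 1) // A.1 0 = Pi.single 0 1} = Nat.card (Orth F n) := by
  have hcol : ∀ A : {A : Orth F (n + 1) // A.1 0 = Pi.single 0 1}, ∀ i : Fin n, A.1.1 i.succ 0 = 0 := fun A i => by
    have e := congrFun (congrFun A.1.2 i.succ) 0
    rw [Matrix.mul_apply', Matrix.one_apply_ne (Fin.succ_ne_zero i)] at e
    simp only [Matrix.transpose_apply] at e
    rw [show (fun j => A.1.1 0 j) = A.1.1 0 from rfl, A.2, dotProduct_single, mul_one] at e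
    exact e
  let big : Matrix (Fin n) (Fin n) F → Matrix (Fin (n + 1)) (Fin (n + 1)) F :=
    fun B => Matrix.of (Fin.cons (Pi.single 0 1) fun i => Fin.cons 0 (B i))
  have hbig : ∀ B : Orth F n, big B.1 * (big B.1)ᵀ = 1 := fun B => by
    ext i j
    rw [Matrix.mul_apply, Fin.sum_univ_succ]
    cases i using Fin.cases <;> cases j using Fin.cases <;>
      simp [big, Pi.single_apply, Fin.succ_ne_zero, (Fin.succ_ne_zero _).symm, Matrix.one_apply, Fin.succ_inj]
    rename_i i j
    simpa [Matrix.mul_apply, Matrix.one_apply] using congrFun (congrFun B.2 i) j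
  refine Nat.card_congr
    { toFun := fun A => ⟨A.1.1.submatrix Fin.succ Fin.succ, ?_⟩
      invFun := fun B => ⟨⟨big B.1, hbig B⟩, rfl⟩
      left_inv := fun A => ?_
      right_inv := fun B => ?_ }
  · ext i j
    have e := congrFun (congrFun A.1.2 i.succ) j.succ
    rw [Matrix.mul_apply, Fin.sum_univ_succ] at e
    simp only [Matrix.transpose_apply, hcol A, zero_mul, zero_add] at e
    rw [Matrix.mul_apply]
    simpa [Matrix.one_apply, Fin.succ_inj] using e
  · refine Subtype.ext (Subtype.ext (Matrix.ext fun i j => ?_))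
    cases i using Fin.cases with
    | zero => simp [big, A.2]
    | succ i => cases j using Fin.cases <;> simp [big, hcol A]
  · exact Subtype.ext (Matrix.ext fun i j => by simp [big])

theorem card_orth_step (n : ℕ) :
    Nat.card (Orth F (n + 1)) =
      Nat.card {v : Fin (n + 1) → F // ∑ i, v i = 1 ∧ (n = 0 ∨ v ≠ fun _ => 1)} * Nat.card (Orth F n) := by
  classical
  rw [← card_row_fixed n, ← Nat.card_prod]
  choose sec hsec using fun v : {v : Fin (n + 1) → F // ∑ i, v i = 1 ∧ (n = 0 ∨ v ≠ fun _ => 1)} =>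
    exists_row h2 v.2.1 v.2.2
  have hrow : ∀ A : Orth F (n + 1), ∑ i, A.1 0 i = 1 ∧ (n = 0 ∨ A.1 0 ≠ fun _ => 1) := fun A => by
    refine ⟨(dot_self_one_iff h2 _).1 ?_, ?_⟩
    · have e := congrFun (congrFun A.2 0) 0
      rw [Matrix.mul_apply', Matrix.one_apply_eq] at e
      exact e
    · by_cases hn : n = 0
      · exact .inl hn
      · exact .inr (row_ne_one h2 hn A)
  have hT : ∀ A : Orth F (n + 1), A.1ᵀ * A.1 = 1 := fun A => mul_eq_one_comm.1 A.2
  have hmul : ∀ A B : Orth F (n + 1), A.1 * B.1 * (A.1 * B.1)ᵀ = 1 := fun A B => by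
    rw [Matrix.transpose_mul, ← Matrix.mul_assoc, Matrix.mul_assoc A.1, B.2, Matrix.mul_one, A.2]
  let T : Orth F (n + 1) → Orth F (n + 1) := fun A => ⟨A.1ᵀ, by rw [Matrix.transpose_transpose, hT]⟩
  refine Nat.card_congr
    { toFun := fun A => (⟨A.1 0, hrow A⟩, ⟨⟨A.1 * (T (sec ⟨A.1 0, hrow A⟩)).1, hmul A (T _)⟩, ?_⟩)
      invFun := fun p => ⟨p.2.1.1 * (sec p.1).1, hmul p.2.1 (sec p.1)⟩
      left_inv := fun A => Subtype.ext (by simp only [T, Matrix.mul_assoc, hT, Matrix.mul_one])
      right_inv := fun p => ?_ }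
  · show (A.1 * (sec ⟨A.1 0, hrow A⟩).1ᵀ) 0 = _
    funext j
    have e := congrFun (congrFun (sec ⟨A.1 0, hrow A⟩).2 0) j
    rw [Matrix.mul_apply] at e
    simp only [hsec] at e
    rw [Matrix.mul_apply, e, Matrix.one_apply, Pi.single_apply]
    simp [eq_comm]
  · have e0 : (p.2.1.1 * (sec p.1).1) 0 = p.1.1 := by
      funext j
      rw [Matrix.mul_apply]
      have hh : p.2.1.1 0 = Pi.single 0 1 := p.2.2
      simp [hh, Pi.single_apply, hsec p.1]
    have e1 : (⟨_, hrow ⟨p.2.1.1 * (sec p.1).1, hmul p.2.1 (sec p.1)⟩⟩ :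
        {v : Fin (n + 1) → F // ∑ i, v i = 1 ∧ (n = 0 ∨ v ≠ fun _ => 1)}) = p.1 := Subtype.ext e0
    refine Prod.ext e1 (Subtype.ext (Subtype.ext ?_))
    simp only [e1, T, Matrix.mul_assoc, (sec p.1).2, Matrix.mul_one]

omit h2 in
theorem card_sum_eq_one (n : ℕ) : Nat.card {v : Fin (n + 1) → F // ∑ i, v i = 1} = Fintype.card F ^ n := by
  refine (Nat.card_congr (β := Fin n → F) ?_).trans (by rw [Nat.card_fun, Nat.card_fin, Nat.card_eq_fintype_card])
  exact
    { toFun := fun v i => v.1 i.succ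
      invFun := fun w => ⟨Fin.cons (1 - ∑ i, w i) w, by simp [Fin.sum_univ_succ]⟩
      left_inv := fun v => Subtype.ext (funext fun i => by
        cases i using Fin.cases with
        | zero =>
          have := v.2
          rw [Fin.sum_univ_succ] at this
          simp only [Fin.cons_zero]
          linear_combination -this
        | succ i => simp)
      right_inv := fun w => funext fun i => by simp }

theorem two_mul_cast_zero (j : ℕ) : ((2 * j : ℕ) : F) = 0 := by push_cast; rw [h2, zero_mul]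

theorem card_row_even (j : ℕ) :
    Nat.card {v : Fin (2 * j + 2) → F // ∑ i, v i = 1 ∧ (2 * j + 1 = 0 ∨ v ≠ fun _ => 1)} =
      Fintype.card F ^ (2 * j + 1) := by
  rw [← card_sum_eq_one (F := F) (2 * j + 1)]
  refine Nat.card_congr (Equiv.subtypeEquivRight fun v => and_iff_left_of_imp fun hv => .inr fun h => ?_)
  rw [h] at hv
  simp only [Finset.sum_const, Finset.card_univ, Fintype.card_fin, nsmul_eq_mul, mul_one] at hv
  have : ((2 * j + 2 : ℕ) : F) = 0 := by rw [show 2 * j + 2 = 2 * (j + 1) by ring]; exact two_mul_cast_zero h2 _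
  exact zero_ne_one (this.symm.trans hv)

theorem card_row_odd (j : ℕ) :
    Nat.card {v : Fin (2 * j + 3) → F // ∑ i, v i = 1 ∧ (2 * j + 2 = 0 ∨ v ≠ fun _ => 1)} =
      Fintype.card F ^ (2 * (j + 1)) - 1 := by
  classical
  have h1 : ∑ _i : Fin (2 * j + 3), (1 : F) = 1 := by
    simp only [Finset.sum_const, Finset.card_univ, Fintype.card_fin, nsmul_eq_mul, mul_one]
    rw [show 2 * j + 3 = 2 * (j + 1) + 1 by ring, Nat.cast_add, two_mul_cast_zero h2, Nat.cast_one, zero_add]
  rw [show 2 * (j + 1) = 2 * j + 2 by ring, ← card_sum_eq_one (F := F) (2 * j + 2), Nat.card_eq_fintype_card,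
    Nat.card_eq_fintype_card, Fintype.card_subtype, Fintype.card_subtype]
  rw [← Finset.card_erase_of_mem (s := ({v | ∑ i, v i = 1} : Finset (Fin (2 * j + 3) → F))) (a := fun _ => 1)
    (by simpa using h1)]
  congr 1
  ext v
  simp [and_comm]

theorem card_orth_odd (j : ℕ) : Nat.card (Orth F (2 * j + 1)) = spOrd (Fintype.card F) j := by
  induction j with
  | zero =>
    have h0 : Nat.card (Orth F 0) = 1 := by
      rw [Nat.card_eq_one_iff_unique]
      exact ⟨⟨fun A B => Subtype.ext (Matrix.ext fun i => i.elim0)⟩, ⟨⟨0, Matrix.ext fun i => i.elim0⟩⟩⟩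
    rw [card_orth_step h2, h0, mul_one]
    rw [show ({v : Fin (0 + 1) → F // ∑ i, v i = 1 ∧ (0 = 0 ∨ v ≠ fun _ => 1)}) =
      {v : Fin (0 + 1) → F // ∑ i, v i = 1} by congr 1; ext v; simp, card_sum_eq_one]
    simp [spOrd]
  | succ j ih =>
    rw [show 2 * (j + 1) + 1 = (2 * j + 2) + 1 by ring, card_orth_step h2, card_orth_step h2, ih,
      card_row_odd h2, card_row_even h2, spOrd, spOrd, Finset.prod_range_succ,
      show (j + 1) ^ 2 = 2 * j + 1 + j ^ 2 by ring, pow_add (Fintype.card F) (2 * j + 1)]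
    ring

theorem card_orth_even (j : ℕ) :
    Nat.card (Orth F (2 * j + 2)) = Fintype.card F ^ (2 * j + 1) * spOrd (Fintype.card F) j := by
  rw [card_orth_step h2, card_orth_odd h2, card_row_even h2]

end CfsgLib.InvTwo
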