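import Cfsg.Agent.InvTwo.Centralizer
import Cfsg.Agent.InvTwo.OneOrth
import Cfsg.Agent.Forms.Standard
import Cfsg.Agent.Forms.SympEmbed
import Cfsg.Agent.OrthOrder.Orders
import Cfsg.Agent.SpGeom.Order

/-!
The factors of the centraliser orders.
-/

set_option autoImplicit false
set_option linter.unusedSectionVars false

open QuadraticMap

namespace CfsgLib.InvTwo

variable {F : Type*} [Field F] [Fintype F]

theorem card_shape_id (h2 : (2 : F) = 0) (n : ℕ) : Nat.card (Shape F (id : Fin n → Fin n)) = Nat.card (Orth F n) := by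
  refine Nat.card_congr ((Matrix.of (m := Fin n) (n := Fin n) (α := F)).subtypeEquiv fun A => ?_)
  rw [← Matrix.ext_iff]
  refine forall_congr' fun i => forall_congr' fun k => ?_
  rw [Matrix.mul_apply, Matrix.one_apply]
  simp [eq_comm]

theorem card_shape_swap (h2 : (2 : F) = 0) (r : ℕ) :
    Nat.card (Shape F (Sum.swap : Fin r ⊕ Fin r → Fin r ⊕ Fin r)) = spOrd (Fintype.card F) r := by
  rw [spOrd, ← CfsgLib.SpGeom.card_Sp]
  refine Nat.card_congr ((Matrix.of (m := Fin r ⊕ Fin r) (n := Fin r ⊕ Fin r) (α := F)).subtypeEquiv fun A => ?_)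
  have hneg : (-1 : F) = 1 := by linear_combination -h2
  have hJ : ∀ j l, Matrix.J (Fin r) F j l = if l = j.swap then 1 else 0 := fun j l => by
    rcases j with j | j <;> rcases l with l | l
    · simp [Matrix.J]
    · by_cases h : j = l <;> simp [Matrix.J, h, Ne.symm, hneg, eq_comm]
    · by_cases h : j = l <;> simp [Matrix.J, h, Ne.symm, hneg, eq_comm]
    · simp [Matrix.J]
  have e : ∀ i k, (Matrix.of A * Matrix.J (Fin r) F * (Matrix.of A).transpose) i k = ∑ j, A i j * A k j.swap := fun i k => by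
    rw [Matrix.mul_apply]
    simp only [Matrix.mul_apply, hJ, Matrix.transpose_apply, Matrix.of_apply, Finset.sum_mul, mul_ite, mul_one,
      mul_zero, ite_mul, zero_mul]
    rw [Finset.sum_comm]
    simp
  rw [SymplecticGroup.mem_iff, ← Matrix.ext_iff]
  refine forall_congr' fun i => forall_congr' fun k => ?_
  rw [e, hJ]

/-- The maps preserving a bilinear form. -/
def isomF {W : Type*} [AddCommGroup W] [Module F W] (f : W →ₗ[F] W →ₗ[F] F) : Subgroup (W ≃ₗ[F] W) where
  carrier := {g | ∀ x y, f (g x) (g y) = f x y}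
  mul_mem' {a b} ha hb x y := by show f (a (b x)) (a (b y)) = f x y; rw [ha, hb]
  one_mem' x y := rfl
  inv_mem' {a} ha x y := by
    show f (a.symm x) (a.symm y) = f x y
    conv_rhs => rw [← a.apply_symm_apply x, ← a.apply_symm_apply y, ha]

theorem card_isomF_sympForm (n : ℕ) :
    Nat.card {g : (Fin n ⊕ Fin n → F) ≃ₗ[F] (Fin n ⊕ Fin n → F) //
        ∀ x y, Cfsg.sympForm n F (g x) (g y) = Cfsg.sympForm n F x y} =
      spOrd (Fintype.card F) n := by
  rw [spOrd, ← CfsgLib.SpGeom.card_Sp]
  refine Nat.card_congr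
    { toFun := fun g => ⟨LinearMap.toMatrix' (g.1 : (Fin n ⊕ Fin n → F) →ₗ[F] (Fin n ⊕ Fin n → F)),
        CfsgLib.SpGeom.mem_of_form fun u v => by
          rw [LinearMap.toMatrix'_mulVec, LinearMap.toMatrix'_mulVec]; exact g.2 u v⟩
      invFun := fun a => ⟨Matrix.toLinearEquiv' a.1 (Matrix.invertibleOfIsUnitDet _ (SymplecticGroup.symplectic_det a.2)),
        fun x y => CfsgLib.SpGeom.form_mulVec a x y⟩
      left_inv := fun g => Subtype.ext (LinearEquiv.ext fun v => LinearMap.toMatrix'_mulVec _ v)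
      right_inv := fun a => Subtype.ext (Matrix.ext_iff_mulVec.2 fun v => by
        rw [LinearMap.toMatrix'_mulVec]; rfl) }

variable {V : Type*} [AddCommGroup V] [Module F V] [FiniteDimensional F V] {f : V →ₗ[F] V →ₗ[F] F}
  {N : V →ₗ[F] V} {ι : Type} [Fintype ι] [DecidableEq ι] {σ : ι → ι} {u : ι → V}
  (hN : SelfAdj f N) (hF : Frame f N σ u)
include hN hF

theorem finrank_frameOrth :
    Module.finrank F (frameOrth f N u) + 2 * Fintype.card ι = Module.finrank F V := by
  let L : ((ι → F) × (ι → F)) × frameOrth f N u →ₗ[F] V := (comb N u).coprod (frameOrth f N u).subtype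
  have hb : Function.Bijective L := by
    refine ⟨(injective_iff_map_eq_zero L).2 fun p hp => ?_, fun x => ?_⟩
    · have hp' : comb N u p.1 + (p.2 : V) = 0 := hp
      have h1 := proj_comb_add hN hF p.2.2 p.1
      rw [hp', ← projL_apply, map_zero] at h1
      refine Prod.ext (comb_injective hN hF ?_) (Subtype.ext h1.symm)
      rw [← h1, add_zero] at hp'
      rw [hp', Prod.fst_zero, map_zero]
    · obtain ⟨a, w, hw, rfl⟩ := exists_decomp hN hF x
      exact ⟨(a, ⟨w, hw⟩), rfl⟩
  have h := (LinearEquiv.ofBijective L hb).finrank_eq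
  rw [Module.finrank_prod, Module.finrank_prod, Module.finrank_fintype_fun_eq_card] at h
  omega

theorem separating_frameOrth {x : frameOrth f N u} (hx : ∀ y : frameOrth f N u, f (x : V) (y : V) = 0) : x = 0 := by
  refine Subtype.ext (hN.inj ?_)
  rw [ZeroMemClass.coe_zero, map_zero]
  refine LinearMap.ext fun y => ?_
  obtain ⟨a, w, hw, rfl⟩ := exists_decomp hN hF y
  rw [map_add, f_comb_orth hN hF a x.2, hx ⟨w, hw⟩, add_zero, LinearMap.zero_apply]

theorem natCard_frameOrth {k : ℕ} (hk : Module.finrank F V = 2 * Fintype.card ι + 2 * k) :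
    Nat.card (frameOrth f N u) = Fintype.card F ^ (2 * k) := by
  rw [Module.natCard_eq_pow_finrank (K := F), Nat.card_eq_fintype_card (α := F)]
  have := finrank_frameOrth hN hF
  congr 1
  omega

theorem card_isomF_frameOrth {k : ℕ} (hk : Module.finrank F V = 2 * Fintype.card ι + 2 * k) :
    Nat.card {h : frameOrth f N u ≃ₗ[F] frameOrth f N u // ∀ x y : frameOrth f N u, f (h x : V) (h y : V) = f (x : V) (y : V)} =
      spOrd (Fintype.card F) k := by
  let B : LinearMap.BilinForm F (frameOrth f N u) := (f.domRestrict _).compl₂ (frameOrth f N u).subtype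
  obtain ⟨e, he⟩ := CfsgLib.Forms.exists_symp_coord (n := k) (by have := finrank_frameOrth hN hF; omega) B
    (fun x => hN.alt _) (fun x hx => separating_frameOrth hN hF hx)
  rw [← card_isomF_sympForm]
  refine Nat.card_congr
    { toFun := fun h => ⟨e.symm ≪≫ₗ h.1 ≪≫ₗ e, fun x y => ?_⟩
      invFun := fun g => ⟨e ≪≫ₗ g.1 ≪≫ₗ e.symm, fun x y => ?_⟩
      left_inv := fun h => Subtype.ext (LinearEquiv.ext fun v => by simp)
      right_inv := fun g => Subtype.ext (LinearEquiv.ext fun v => by simp) }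
  · simp only [LinearEquiv.trans_apply]
    rw [he]
    exact (h.2 _ _).trans ((he _ _).symm.trans (by simp))
  · show B _ _ = B x y
    rw [← he, ← he x y]
    simp only [LinearEquiv.trans_apply, LinearEquiv.apply_symm_apply]
    exact g.2 _ _

/-- The centraliser in the symplectic group. -/
theorem card_comm_sp {k : ℕ} (hk : Module.finrank F V = 2 * Fintype.card ι + 2 * k) :
    Nat.card {g : V ≃ₗ[F] V // g ∈ isomF f ∧ ∀ x, g (N x) = N (g x)} =
      Nat.card (Shape F σ) * Fintype.card F ^ (2 * k * Fintype.card ι + Fintype.card ι +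
        Fintype.card ι * (Fintype.card ι - 1) / 2) * spOrd (Fintype.card F) k := by
  haveI : Finite V := Module.finite_of_finite F
  rw [card_comm hN hF (isomF f) (fun g hg => hg) (fun u' => Frame f N σ u')
    (fun g hg hc => ⟨hF.invol, fun i j => by rw [← hc, hg]; exact hF.dual i j, fun i j => by rw [hg]; exact hF.orth i j,
      fun x hx => by
        have h := hF.rad (g.symm x) fun i => by
          rw [← hg, g.apply_symm_apply, hc]; exact hx i
        have h' := congrArg g h
        rwa [hc, g.apply_symm_apply, map_zero] at h'⟩)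
    (fun u' hu' => exists_conj_frame hN hN hF hu'),
    card_frames hN hF,
    card_fix hN hF (fun g => g ∈ isomF f) (fun h => ∀ x y : frameOrth f N u, f (h x : V) (h y : V) = f (x : V) (y : V))
      (fun g hg => hg) (fun g h hg he x y => by rw [← he, ← he]; exact hg _ _) (fun h hh x y => ?_),
    card_isomF_frameOrth hN hF hk]
  · have hl := card_lifts_sp (F := F) (ι := ι) hN.two ((f.domRestrict (frameOrth f N u)).compl₂ (frameOrth f N u).subtype)
      (fun x => hN.alt _) (fun x y => hN.symm _ _)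
    simp only [LinearMap.compl₂_apply, LinearMap.domRestrict_apply, Submodule.coe_subtype] at hl
    rw [hl, natCard_frameOrth hN hF hk, card_lower]
    ring
  · obtain ⟨a, w, hw, rfl⟩ := exists_decomp hN hF x
    obtain ⟨b, z, hz, rfl⟩ := exists_decomp hN hF y
    rw [extendE_apply hN hF h a ⟨w, hw⟩, extendE_apply hN hF h b ⟨z, hz⟩]
    simp only [map_add, LinearMap.add_apply]
    rw [hN.symm (comb N u a) (h ⟨z, hz⟩ : V), hN.symm (comb N u a) z, f_comb_orth hN hF b hw,
      f_comb_orth hN hF a hz, f_comb_orth hN hF b (h ⟨w, hw⟩).2, f_comb_orth hN hF a (h ⟨z, hz⟩).2, hh ⟨w, hw⟩ ⟨z, hz⟩]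

theorem card_comm_orth {Q : QuadraticForm F V} (hQf : ∀ x y, polar Q x y = f x y)
    (hQN : ∀ v, Q (N v) = f v (N v)) (hu0 : ∀ i, Q (u i) = 0) :
    Nat.card {g : V ≃ₗ[F] V // g ∈ CfsgLib.Forms.isom Q ∧ ∀ x, g (N x) = N (g x)} =
      Nat.card (Shape F σ) * Nat.card {q : (ι → frameOrth f N u) × (ι → ι → F) //
        (∀ i k, q.2 i k + q.2 k i + f (q.1 i : V) (q.1 k : V) = 0) ∧
        ∀ i, q.2 i i + (∑ l, if σ l = l then q.2 i l ^ 2 else 0) + Q (q.1 i : V) = 0} *
      Nat.card (CfsgLib.Forms.isom (Q.comp (frameOrth f N u).subtype)) := by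
  have hpf : ∀ g ∈ CfsgLib.Forms.isom Q, ∀ x y, f (g x) (g y) = f x y := fun g hg x y => by
    rw [← hQf, ← hQf]; exact CfsgLib.Forms.isom_polar hg x y
  rw [card_comm hN hF (CfsgLib.Forms.isom Q) hpf (fun u' => Frame f N σ u' ∧ ∀ i, Q (u' i) = 0)
    (fun g hg hc => ⟨⟨hF.invol, fun i j => by rw [← hc, hpf g hg]; exact hF.dual i j,
      fun i j => by rw [hpf g hg]; exact hF.orth i j, fun x hx => by
        have h := hF.rad (g.symm x) fun i => by
          rw [← hpf g hg, g.apply_symm_apply, hc]; exact hx i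
        have h' := congrArg g h
        rwa [hc, g.apply_symm_apply, map_zero] at h'⟩, fun i => (hg _).trans (hu0 i)⟩)
    (fun u' hu' => exists_conj_orth_frame hN hN hF hu'.1 hQf hQN hQN fun i => (hu0 i).trans (hu'.2 i).symm),
    card_frames_orth hN hF hQf hQN hu0,
    card_fix hN hF (fun g => g ∈ CfsgLib.Forms.isom Q)
      (fun h => h ∈ CfsgLib.Forms.isom (Q.comp (frameOrth f N u).subtype))
      hpf (fun g h hg he w => by
        show Q (h w : V) = Q (w : V)
        rw [← he]; exact hg _)
      (fun h hh x => ?_)]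
  obtain ⟨a, w, hw, rfl⟩ := exists_decomp hN hF x
  rw [extendE_apply hN hF h a ⟨w, hw⟩, QuadraticMap.map_add (⇑Q), QuadraticMap.map_add (⇑Q) (comb N u a), hQf, hQf,
    hN.symm, f_comb_orth hN hF a (h ⟨w, hw⟩).2, hN.symm, f_comb_orth hN hF a hw]
  rw [show Q (h ⟨w, hw⟩ : V) = Q w from hh ⟨w, hw⟩]

omit hN hF

open CfsgLib.Forms in
/-- Inside the hyperbolic space the complement of a zero frame is hyperbolic. -/
theorem exists_frameOrth_plus {m k : ℕ} {N : (Fin m ⊕ Fin m → F) →ₗ[F] (Fin m ⊕ Fin m → F)} {u : ι → Fin m ⊕ Fin m → F}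
    (hk : Fintype.card ι + k = m) (hN : SelfAdj (polarBilin (quadPlus F m)) N)
    (hF : Frame (polarBilin (quadPlus F m)) N σ u) (hQN : ∀ v, quadPlus F m (N v) = polarBilin (quadPlus F m) v (N v))
    (hu0 : ∀ i, quadPlus F m (u i) = 0) :
    ∃ e : (Fin k ⊕ Fin k → F) ≃ₗ[F] frameOrth (polarBilin (quadPlus F m)) N u,
      ∀ y, quadPlus F m (e y : Fin m ⊕ Fin m → F) = quadPlus F k y := by
  classical
  set Q := quadPlus F m
  set f := polarBilin Q with hf
  have hQ : (polarBilin Q).Nondegenerate := nondegenerate_quadPlus m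
  have hQf : ∀ x y, polar Q x y = f x y := fun x y => rfl
  let E : ι ⊕ Fin k ≃ Fin m := Fintype.equivFinOfCardEq (by simpa using hk)
  let emb : ((ι → F) × (ι → F)) →ₗ[F] (Fin m ⊕ Fin m → F) :=
    { toFun := fun p => Sum.elim (fun j => Sum.elim p.1 0 (E.symm j)) (fun j => Sum.elim p.2 0 (E.symm j))
      map_add' := fun p q => funext fun j => by
        rcases j with j | j <;> rcases h : E.symm j with i | i <;> simp [h]
      map_smul' := fun c p => funext fun j => by
        rcases j with j | j <;> rcases h : E.symm j with i | i <;> simp [h] }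
  let par : ι → Fin m ⊕ Fin m → F := fun i => N (u (σ i)) + (if σ i = i then (1 : F) else 0) • u i
  let Ψ : ((ι → F) × (ι → F)) →ₗ[F] (Fin m ⊕ Fin m → F) :=
    (Fintype.linearCombination F u).coprod (Fintype.linearCombination F par)
  have hemb : Function.Injective emb := fun p q h => Prod.ext
    (funext fun i => by simpa [emb] using congrFun h (.inl (E (.inl i))))
    (funext fun i => by simpa [emb] using congrFun h (.inr (E (.inl i))))
  have h_up : ∀ i l, f (u i) (par l) = if l = i then 1 else 0 := fun i l => by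
    simp only [par, map_add, map_smul, hF.dual, hF.orth, hF.invol.injective.eq_iff, smul_eq_mul, mul_zero, add_zero]
  have h_pp : ∀ i l, f (par i) (par l) = 0 := fun i l => by
    have hw : f (N (u (σ i))) (u l) = if i = l then 1 else 0 := by
      rw [hN.symm, hF.dual]
      simp [hF.invol.injective.eq_iff]
    by_cases hil : l = i
    · subst hil; exact hN.alt _
    · simp only [par, map_add, map_smul, LinearMap.add_apply, LinearMap.smul_apply, hN.nn, hF.dual, hF.orth,
        hF.invol.injective.eq_iff, hw, if_neg hil, if_neg (Ne.symm hil), smul_eq_mul, mul_zero, add_zero, zero_add]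
  have h_pu : ∀ i l, f (par i) (u l) = if i = l then 1 else 0 := fun i l => by rw [hN.symm, h_up]
  have hQpar : ∀ i, Q (par i) = 0 := fun i => by
    simp only [par]
    rw [QuadraticMap.map_add (⇑Q), QuadraticMap.map_smul, hQN, hu0, hF.dual, hF.invol, hQf, map_smul, hN.symm,
      hF.dual]
    by_cases h : σ i = i <;> simp [h, Ne.symm, hN.two, one_add_one_eq_two]
  have hQsum : ∀ (a : ι → F) (w : ι → Fin m ⊕ Fin m → F), (∀ p q, f (w p) (w q) = 0) → (∀ p, Q (w p) = 0) →
      ∀ S : Finset ι, Q (∑ j ∈ S, a j • w j) = 0 := fun a w hw hw0 S => by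
    induction S using Finset.induction_on with
    | empty => simp
    | insert j S hj ih =>
      rw [Finset.sum_insert hj, QuadraticMap.map_add (⇑Q), ih, hQf, QuadraticMap.map_smul, hw0]
      simp [map_sum, hw]
  have hΨ : ∀ p, Ψ p = ∑ i, p.1 i • u i + ∑ i, p.2 i • par i := fun p => by
    simp [Ψ, Fintype.linearCombination_apply]
  have hΨp : ∀ p l, f (Ψ p) (par l) = p.1 l := fun p l => by
    simp [hΨ, map_sum, h_up, h_pp]
  have hΨu : ∀ p l, f (Ψ p) (u l) = p.2 l := fun p l => by
    simp [hΨ, map_sum, hF.orth, h_pu]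
  have hΨinj : Function.Injective Ψ := fun p q h => Prod.ext (funext fun l => by rw [← hΨp, h, hΨp])
    (funext fun l => by rw [← hΨu, h, hΨu])
  have hQΨ : ∀ p, Q (Ψ p) = ∑ i, p.1 i * p.2 i := fun p => by
    rw [hΨ, QuadraticMap.map_add (⇑Q), hQsum _ _ hF.orth hu0, hQsum _ _ h_pp hQpar, hQf]
    simp [map_sum, h_up, mul_comm]
  have hsum : ∀ φ : Fin m → F, ∑ j, φ j = ∑ i, φ (E (.inl i)) + ∑ i, φ (E (.inr i)) := fun φ => by
    rw [← E.sum_comp, Fintype.sum_sum_type]
  have hQemb : ∀ p, Q (emb p) = ∑ i, p.1 i * p.2 i := fun p => by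
    simp [Q, coe_quadPlus, Cfsg.quadFormPlus, hsum, emb]
  obtain ⟨g, hg, hgφ⟩ := witt hQ (LinearMap.range emb) (Ψ.comp (LinearEquiv.ofInjective emb hemb).symm.toLinearMap)
    (hΨinj.comp (LinearEquiv.injective _)) (by
      rintro ⟨_, p, rfl⟩
      have e : (LinearEquiv.ofInjective emb hemb).symm ⟨emb p, p, rfl⟩ = p := by
        rw [LinearEquiv.symm_apply_eq]; rfl
      show Q (Ψ ((LinearEquiv.ofInjective emb hemb).symm ⟨emb p, p, rfl⟩)) = Q (emb p)
      rw [e, hQΨ, hQemb])
  have hgemb : ∀ p, g (emb p) = Ψ p := fun p => by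
    rw [hgφ ⟨emb p, p, rfl⟩]
    show Ψ ((LinearEquiv.ofInjective emb hemb).symm ⟨emb p, p, rfl⟩) = Ψ p
    congr 1
    rw [LinearEquiv.symm_apply_eq]; rfl
  let ext' : (Fin k ⊕ Fin k → F) →ₗ[F] (Fin m ⊕ Fin m → F) :=
    { toFun := fun y => Sum.elim (fun j => Sum.elim 0 (fun i => y (.inl i)) (E.symm j))
        (fun j => Sum.elim 0 (fun i => y (.inr i)) (E.symm j))
      map_add' := fun p q => funext fun j => by
        rcases j with j | j <;> rcases h : E.symm j with i | i <;> simp [h]
      map_smul' := fun c p => funext fun j => by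
        rcases j with j | j <;> rcases h : E.symm j with i | i <;> simp [h] }
  have hQext : ∀ y, Q (ext' y) = quadPlus F k y := fun y => by
    simp [Q, coe_quadPlus, Cfsg.quadFormPlus, hsum, ext']
  have hperp : ∀ y p, f (ext' y) (emb p) = 0 := fun y p => by
    rw [← hQf]
    simp [Q, coe_quadPlus, polar_plus, hsum, ext', emb]
  have hgf : ∀ x y, f (g x) (g y) = f x y := fun x y => by
    rw [← hQf, ← hQf]; exact isom_polar hg x y
  have hmem : ∀ y, g (ext' y) ∈ frameOrth f N u := fun y => by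
    have h1 : ∀ p, f (g (ext' y)) (Ψ p) = 0 := fun p => by rw [← hgemb, hgf, hperp]
    have hu' : ∀ i, f (g (ext' y)) (u i) = 0 := fun i => by
      have := h1 (Pi.single i 1, 0)
      simpa [hΨ, Pi.single_apply] using this
    rw [mem_frameOrth]
    refine ⟨hu', fun i => ?_⟩
    have := h1 (0, Pi.single (σ i) 1)
    rw [show Ψ (0, Pi.single (σ i) 1) = par (σ i) by simp [hΨ, Pi.single_apply]] at this
    simpa only [par, hF.invol i, map_add, map_smul, hu', smul_zero, add_zero] using this
  let L : (Fin k ⊕ Fin k → F) →ₗ[F] frameOrth f N u := (g.toLinearMap.comp ext').codRestrict _ hmem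
  have hLi : Function.Injective L := fun y y' h => by
    have h1 : ext' y = ext' y' := g.injective (congrArg Subtype.val h)
    funext j
    rcases j with i | i
    · simpa [ext'] using congrFun h1 (.inl (E (.inr i)))
    · simpa [ext'] using congrFun h1 (.inr (E (.inr i)))
  have hdim : Module.finrank F (Fin k ⊕ Fin k → F) = Module.finrank F (frameOrth f N u) := by
    have := finrank_frameOrth hN hF
    simp only [Module.finrank_fintype_fun_eq_card, Fintype.card_sum, Fintype.card_fin] at this ⊢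
    omega
  exact ⟨L.linearEquivOfInjective hLi hdim, fun y => by
    show Q (g (ext' y)) = _
    rw [hg, hQext]⟩

/-- The values in the image of `e ↦ e + e ^ 2`. -/
theorem card_wp_values (h2 : (2 : F) = 0) (k : ℕ) :
    2 * Nat.card {y : Fin k ⊕ Fin k → F // CfsgLib.Forms.quadPlus F k y ∈ (wp h2).range} =
      Fintype.card F ^ (2 * k) + Fintype.card F ^ k := by
  classical
  let E : {y : Fin k ⊕ Fin k → F // CfsgLib.Forms.quadPlus F k y ∈ (wp h2).range} ≃
      Σ b : Fin k → F, {a : Fin k → F // ∑ i, a i * b i ∈ (wp h2).range} :=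
    { toFun := fun y => ⟨fun i => y.1 (.inr i), fun i => y.1 (.inl i), by simpa [Cfsg.quadFormPlus] using y.2⟩
      invFun := fun s => ⟨Sum.elim s.2.1 s.1, by simpa [Cfsg.quadFormPlus] using s.2.2⟩
      left_inv := fun y => Subtype.ext (funext fun j => by cases j <;> rfl)
      right_inv := fun s => rfl }
  have hfib : ∀ b : Fin k → F, 2 * Nat.card {a : Fin k → F // ∑ i, a i * b i ∈ (wp h2).range} =
      Fintype.card F ^ k + if b = 0 then Fintype.card F ^ k else 0 := fun b => by
    by_cases hb : b = 0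
    · subst hb
      rw [if_pos rfl, Nat.card_congr (Equiv.subtypeUnivEquiv (fun a => by simp)), Nat.card_fun, Nat.card_fin,
        Nat.card_eq_fintype_card (α := F)]
      ring
    · rw [if_neg hb, add_zero]
      obtain ⟨i, hi⟩ : ∃ i, b i ≠ 0 := by
        by_contra hh
        push Not at hh
        exact hb (funext hh)
      let L : (Fin k → F) →+ F := AddMonoidHom.mk' (fun a => ∑ i, a i * b i) fun x y => by
        simp [add_mul, Finset.sum_add_distrib]
      have hL : Function.Surjective L := fun c => ⟨Pi.single i (c / b i), by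
        simp [L, Pi.single_apply, div_mul_cancel₀ _ hi]⟩
      have h := ((wp h2).range.comap L).card_mul_index
      rw [AddSubgroup.index_comap_of_surjective _ hL, index_wp h2, Nat.card_fun, Nat.card_fin,
        Nat.card_eq_fintype_card (α := F)] at h
      rw [← h, mul_comm]
      rfl
  rw [Nat.card_congr E, Nat.card_sigma, Finset.mul_sum, Finset.sum_congr rfl fun b _ => hfib b,
    Finset.sum_add_distrib, Finset.sum_const, Finset.card_univ, Finset.sum_ite_eq', if_pos (Finset.mem_univ _),
    Fintype.card_fun, Fintype.card_fin, smul_eq_mul, two_mul, pow_add]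

/-- Half of the order of the plus orthogonal group. -/
def plusOrd (q : ℕ) : ℕ → ℕ
  | 0 => 1
  | k + 1 => 2 * q ^ ((k + 1) * k) * (q ^ (k + 1) - 1) * ∏ i ∈ Finset.range k, (q ^ (2 * (i + 1)) - 1)

theorem card_isom_quadPlus (k : ℕ) :
    Nat.card (CfsgLib.Forms.isom (CfsgLib.Forms.quadPlus F k)) = plusOrd (Fintype.card F) k := by
  cases k with
  | zero =>
    rw [plusOrd, Nat.card_eq_one_iff_unique]
    exact ⟨⟨fun a b => Subtype.ext (LinearEquiv.ext fun v => funext fun i => by
      rcases i with i | i <;> exact i.elim0)⟩, ⟨1⟩⟩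
  | succ k => exact CfsgLib.OrthOrder.card_isom_plus k

theorem plusOrd_mul (q k : ℕ) :
    plusOrd q k * (q ^ k + 1) * q ^ k = 2 * spOrd q k := by
  cases k with
  | zero => simp [plusOrd, spOrd]
  | succ k =>
    rw [plusOrd, spOrd, Finset.prod_range_succ, show (k + 1) ^ 2 = (k + 1) * k + (k + 1) by ring,
      show 2 * (k + 1) = (k + 1) + (k + 1) by ring, pow_add q ((k + 1) * k), pow_add q (k + 1) (k + 1),
      ← pow_two, show (q ^ (k + 1)) ^ 2 - 1 = (q ^ (k + 1) + 1) * (q ^ (k + 1) - 1) by
        simpa using Nat.sq_sub_sq (q ^ (k + 1)) 1]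
    ring

open CfsgLib.Forms in
theorem card_comm_plus_alt {m r k : ℕ} {N : (Fin m ⊕ Fin m → F) →ₗ[F] (Fin m ⊕ Fin m → F)}
    {u : Fin r ⊕ Fin r → Fin m ⊕ Fin m → F} (hk : r + r + k = m) (hN : SelfAdj (polarBilin (quadPlus F m)) N)
    (hF : Frame (polarBilin (quadPlus F m)) N Sum.swap u)
    (hQN : ∀ v, quadPlus F m (N v) = polarBilin (quadPlus F m) v (N v)) (hu0 : ∀ i, quadPlus F m (u i) = 0) :
    Nat.card {g : (Fin m ⊕ Fin m → F) ≃ₗ[F] (Fin m ⊕ Fin m → F) // g ∈ isom (quadPlus F m) ∧ ∀ x, g (N x) = N (g x)} =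
      spOrd (Fintype.card F) r * Fintype.card F ^ (2 * k * (r + r) + (r + r) * (r + r - 1) / 2) *
        plusOrd (Fintype.card F) k := by
  haveI : Finite (Fin m ⊕ Fin m → F) := inferInstance
  obtain ⟨e, he⟩ := exists_frameOrth_plus (k := k) (by simpa using hk) hN hF hQN hu0
  rw [card_comm_orth hN hF (fun x y => rfl) hQN hu0, card_shape_swap hN.two,
    ← CfsgLib.OrthOrder.natCard_isom_congr e (Q := quadPlus F k)
      (Q' := (quadPlus F m).comp (frameOrth (polarBilin (quadPlus F m)) N u).subtype) he, card_isom_quadPlus]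
  have hl := card_lifts_alt (F := F) (ι := Fin r ⊕ Fin r) hN.two
    (((polarBilin (quadPlus F m)).domRestrict (frameOrth (polarBilin (quadPlus F m)) N u)).compl₂
      (frameOrth (polarBilin (quadPlus F m)) N u).subtype)
    (fun x => hN.alt _) (fun x y => hN.symm _ _) (fun w => quadPlus F m (w : Fin m ⊕ Fin m → F))
  simp only [LinearMap.compl₂_apply, LinearMap.domRestrict_apply, Submodule.coe_subtype] at hl
  have hs : ∀ i : Fin r ⊕ Fin r, ¬ i.swap = i := fun i => by cases i <;> simp
  simp only [hs, if_false, Finset.sum_const_zero, add_zero]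
  rw [hl, natCard_frameOrth hN hF (k := k) (by simp; omega), card_lower]
  simp only [Fintype.card_sum, Fintype.card_fin, ← pow_mul, ← pow_add]

open CfsgLib.Forms in
theorem card_comm_plus_diag {m s k : ℕ} {N : (Fin m ⊕ Fin m → F) →ₗ[F] (Fin m ⊕ Fin m → F)}
    {u : Fin s → Fin m ⊕ Fin m → F} (hs : 1 ≤ s) (hk : s + k = m) (hN : SelfAdj (polarBilin (quadPlus F m)) N)
    (hF : Frame (polarBilin (quadPlus F m)) N id u)
    (hQN : ∀ v, quadPlus F m (N v) = polarBilin (quadPlus F m) v (N v)) (hu0 : ∀ i, quadPlus F m (u i) = 0) :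
    Nat.card {g : (Fin m ⊕ Fin m → F) ≃ₗ[F] (Fin m ⊕ Fin m → F) // g ∈ isom (quadPlus F m) ∧ ∀ x, g (N x) = N (g x)} =
      2 * (Nat.card (Orth F s) * Fintype.card F ^ (2 * k * (s - 1) + s * (s - 1) / 2) * spOrd (Fintype.card F) k) := by
  obtain ⟨e, he⟩ := exists_frameOrth_plus (k := k) (by simpa using hk) hN hF hQN hu0
  rw [card_comm_orth hN hF (fun x y => rfl) hQN hu0, card_shape_id hN.two,
    ← CfsgLib.OrthOrder.natCard_isom_congr e (Q := quadPlus F k)
      (Q' := (quadPlus F m).comp (frameOrth (polarBilin (quadPlus F m)) N u).subtype) he, card_isom_quadPlus]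
  have hl := card_lifts_diag (F := F) (ι := Fin s) hN.two
    (((polarBilin (quadPlus F m)).domRestrict (frameOrth (polarBilin (quadPlus F m)) N u)).compl₂
      (frameOrth (polarBilin (quadPlus F m)) N u).subtype)
    (fun x => hN.alt _) (fun x y => hN.symm _ _) ⟨0, hs⟩ (fun w => quadPlus F m (w : Fin m ⊕ Fin m → F))
    (by simp only [ZeroMemClass.coe_zero, QuadraticMap.map_zero]) (fun x y => by
      show quadPlus F m ((x : Fin m ⊕ Fin m → F) + y) = _
      rw [QuadraticMap.map_add (⇑(quadPlus F m))]; rfl)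
  simp only [LinearMap.compl₂_apply, LinearMap.domRestrict_apply, Submodule.coe_subtype] at hl
  simp only [id, if_true]
  rw [hl, natCard_frameOrth hN hF (k := k) (by simp; omega), card_lower]
  have hW : Nat.card {w : frameOrth (polarBilin (quadPlus F m)) N u //
      quadPlus F m (w : Fin m ⊕ Fin m → F) ∈ (wp hN.two).range} =
        Nat.card {y : Fin k ⊕ Fin k → F // quadPlus F k y ∈ (wp hN.two).range} :=
    (Nat.card_congr (e.toEquiv.subtypeEquiv fun y => by rw [← he]; rfl)).symm
  rw [hW]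
  have h1 := card_wp_values (F := F) hN.two k
  have h3 := plusOrd_mul (Fintype.card F) k
  rw [two_mul k, pow_add] at h1
  rw [pow_add _ (2 * k * (s - 1)), ← pow_mul, Fintype.card_fin]
  set A := Nat.card {y : Fin k ⊕ Fin k → F // quadPlus F k y ∈ (wp hN.two).range}
  set q := Fintype.card F
  calc Nat.card (Orth F s) * (q ^ (2 * k * (s - 1)) * A * (2 * q ^ (s * (s - 1) / 2))) * plusOrd q k
      = Nat.card (Orth F s) * q ^ (2 * k * (s - 1)) * q ^ (s * (s - 1) / 2) * (plusOrd q k * (2 * A)) := by ring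
    _ = _ := by
      rw [h1, show plusOrd q k * (q ^ k * q ^ k + q ^ k) = 2 * spOrd q k by rw [← h3]; ring]
      ring

end CfsgLib.InvTwo
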