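import Cfsg.Agent.InvTwo.CentCount
import Cfsg.Agent.InvTwo.Normalize
import Cfsg.Agent.InvTwo.Symp

/-!
Centraliser orders of involutions in the symplectic group and in the plus orthogonal group.
-/

set_option autoImplicit false
set_option linter.unusedSectionVars false
set_option quotPrecheck false

open QuadraticMap Matrix

namespace CfsgLib.InvTwo

open CfsgLib.Forms

variable {F : Type*} [Field F] [Fintype F] {m : ℕ}

local notation "V" => (Fin m ⊕ Fin m → F)

theorem comm_iff_nilM {A G : Matrix (Fin m ⊕ Fin m) (Fin m ⊕ Fin m) F} {g : V →ₗ[F] V} (hg : ∀ v, G *ᵥ v = g v) :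
    G * A = A * G ↔ ∀ x, g (nilM A x) = nilM A (g x) := by
  rw [Matrix.ext_iff_mulVec]
  refine forall_congr' fun v => ?_
  rw [← mulVec_mulVec, ← mulVec_mulVec, nilM_apply, nilM_apply, map_sub, hg, hg, sub_left_inj]

theorem card_centralizer_sp_eq (h2 : (2 : F) = 0) (t : Matrix.symplecticGroup (Fin m) F) :
    Nat.card (Subgroup.centralizer ({t} : Set (Matrix.symplecticGroup (Fin m) F))) =
      Nat.card {g : V ≃ₗ[F] V // g ∈ isomF (polarBilin (quadPlus F m)) ∧ ∀ x, g (nilM t.1 x) = nilM t.1 (g x)} := by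
  refine Nat.card_congr
    { toFun := fun a => ⟨Matrix.toLinearEquiv' a.1.1 (Matrix.invertibleOfIsUnitDet _ (sp_isUnit h2 a.1)),
        (mem_sp_iff h2 _).1 a.1.2,
        (comm_iff_nilM (g := (Matrix.toLinearEquiv' a.1.1 (Matrix.invertibleOfIsUnitDet _ (sp_isUnit h2 a.1)) : V ≃ₗ[F] V).toLinearMap)
          fun v => rfl).1 (congrArg Subtype.val (Subgroup.mem_centralizer_singleton_iff.1 a.2))⟩
      invFun := fun g => ⟨⟨LinearMap.toMatrix' (g.1 : V →ₗ[F] V), (mem_sp_iff h2 _).2 fun u v => by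
          rw [LinearMap.toMatrix'_mulVec, LinearMap.toMatrix'_mulVec]; exact g.2.1 u v⟩,
        Subgroup.mem_centralizer_singleton_iff.2 (Subtype.ext
          ((comm_iff_nilM (g := (g.1 : V →ₗ[F] V)) fun v => LinearMap.toMatrix'_mulVec _ v).2 g.2.2))⟩
      left_inv := fun a => Subtype.ext (Subtype.ext (Matrix.ext_iff_mulVec.2 fun v => by
        rw [LinearMap.toMatrix'_mulVec]; rfl))
      right_inv := fun g => Subtype.ext (LinearEquiv.ext fun v => LinearMap.toMatrix'_mulVec _ v) }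

theorem finrank_split {s : ℕ} (hs : s ≤ m) :
    Module.finrank F V = 2 * s + 2 * (m - s) := by
  rw [Module.finrank_fintype_fun_eq_card, Fintype.card_sum, Fintype.card_fin]
  omega

theorem rank_le {A : Matrix (Fin m ⊕ Fin m) (Fin m ⊕ Fin m) F} {f : V →ₗ[F] V →ₗ[F] F} (hN : SelfAdj f (nilM A)) :
    (A - 1).rank ≤ m := by
  have h := two_rank_le hN
  simp only [Fintype.card_sum, Fintype.card_fin] at h
  omega

/-- The non-alternating centralisers in the symplectic group. -/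
theorem card_centralizer_sp_diag (h2 : (2 : F) = 0) (t : Matrix.symplecticGroup (Fin m) F) (ht : t * t = 1) {s : ℕ}
    (hs : (t.1 - 1).rank = s) (hna : ¬ IsAltN (polarBilin (quadPlus F m)) (nilM t.1)) :
    Nat.card (Subgroup.centralizer ({t} : Set (Matrix.symplecticGroup (Fin m) F))) =
      Nat.card (Orth F s) * Fintype.card F ^ (2 * (m - s) * s + s + s * (s - 1) / 2) * spOrd (Fintype.card F) (m - s) := by
  have hN := selfAdj_sp h2 ht
  obtain ⟨k, u, hu⟩ := exists_frame_diag hN hna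
  have hk : k = s := by
    rw [← hs, rank_nilM, finrank_range hN hu, Fintype.card_fin]
  subst hk
  rw [card_centralizer_sp_eq h2, card_comm_sp hN hu (k := m - k)
    (by rw [Fintype.card_fin]; exact finrank_split (hs ▸ rank_le hN)), card_shape_id h2, Fintype.card_fin]

/-- The alternating centralisers in the symplectic group. -/
theorem card_centralizer_sp_alt (h2 : (2 : F) = 0) (t : Matrix.symplecticGroup (Fin m) F) (ht : t * t = 1) {s : ℕ}
    (hs : (t.1 - 1).rank = s) (ha : IsAltN (polarBilin (quadPlus F m)) (nilM t.1)) :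
    Nat.card (Subgroup.centralizer ({t} : Set (Matrix.symplecticGroup (Fin m) F))) =
      spOrd (Fintype.card F) (s / 2) * Fintype.card F ^ (2 * (m - s) * s + s + s * (s - 1) / 2) *
        spOrd (Fintype.card F) (m - s) := by
  have hN := selfAdj_sp h2 ht
  obtain ⟨r, u, hu⟩ := exists_frame_alt hN ha
  have hk : r + r = s := by
    rw [← hs, rank_nilM, finrank_range hN hu]; simp
  rw [card_centralizer_sp_eq h2, card_comm_sp hN hu (k := m - s)
    (by rw [Fintype.card_sum, Fintype.card_fin, hk]; exact finrank_split (hs ▸ rank_le hN)), card_shape_swap h2]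
  simp only [Fintype.card_sum, Fintype.card_fin, hk]
  rw [show s / 2 = r by omega]

/-- A full frame of the plus form can be normalised to zero values. -/
theorem exists_zero_frame_full {N : V →ₗ[F] V} {s : ℕ} {u : Fin s → V} (hs : s = m) (h1 : 1 ≤ s)
    (hN : SelfAdj (polarBilin (quadPlus F m)) N) (hF : Frame (polarBilin (quadPlus F m)) N id u)
    (hQN : ∀ v, quadPlus F m (N v) = polarBilin (quadPlus F m) v (N v)) :
    ∃ u' : Fin s → V, Frame (polarBilin (quadPlus F m)) N id u' ∧ ∀ i, quadPlus F m (u' i) = 0 := by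
  classical
  set Q := quadPlus F m
  set f := polarBilin Q
  have hQf : ∀ x y, polar Q x y = f x y := fun _ _ => rfl
  let i₀ : Fin s := ⟨0, h1⟩
  obtain ⟨v, hv, hv0⟩ := exists_one_frame hQf hQN hN hF rfl i₀
  let N' : V →ₗ[F] V := ∑ i : {i // i ≠ i₀}, LinearMap.smulRight (f.flip (N (v i))) (N (v i))
  have hN'a : ∀ x, N' x = ∑ i : {i // i ≠ i₀}, f x (N (v i)) • N (v i) := fun x => by simp [N', LinearMap.sum_apply]
  have hN' : SelfAdj f N' := ⟨hN.two, hN.alt, hN.inj, fun x => by simp [hN'a, map_sum, hN.nn], fun x y => by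
    simp only [hN'a, map_sum, map_smul, LinearMap.sum_apply, LinearMap.smul_apply, smul_eq_mul]
    exact Finset.sum_congr rfl fun i _ => by rw [hN.symm y, mul_comm]⟩
  have hN'v : ∀ i : {i // i ≠ i₀}, N' (v i) = N (v i) := fun i => by
    rw [hN'a, Finset.sum_eq_single i (fun b _ hb => by
      rw [hv.dual]; simp only [id]; rw [if_neg fun h => hb (Subtype.ext h), zero_smul]) (by simp), hv.dual]
    simp
  have hF' : Frame f N' id (fun i : {i // i ≠ i₀} => v i) :=
    ⟨fun _ => rfl, fun i j => by rw [hN'v, hv.dual]; simp [Subtype.ext_iff], fun i j => hv.orth _ _, fun x hx => by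
      rw [hN'a]
      exact Finset.sum_eq_zero fun i _ => by
        have := hx i
        rw [hN'v] at this
        rw [this, zero_smul]⟩
  have hQN' : ∀ x, Q (N' x) = f x (N' x) := fun x => by
    have : ∀ S : Finset {i // i ≠ i₀}, Q (∑ i ∈ S, f x (N (v i)) • N (v i)) = f x (∑ i ∈ S, f x (N (v i)) • N (v i)) :=
      fun S => by
        induction S using Finset.induction_on with
        | empty => simp [Q, Cfsg.quadFormPlus]
        | insert j S hj ih =>
          rw [Finset.sum_insert hj, QuadraticMap.map_add (⇑Q), ih, hQf, QuadraticMap.map_smul, hQN, hv.dual]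
          simp [map_sum, hN.nn]
    rw [hN'a]; exact this _
  obtain ⟨e, he⟩ := exists_frameOrth_plus (k := 1) (by
    simp [Fintype.card_subtype_compl]; omega) hN' hF' hQN' (fun i => hv0 _ i.2)
  set y : V := (e (Pi.single (Sum.inl 0) 1) : frameOrth f N' fun i : {i // i ≠ i₀} => v i).1 with hy
  have hQy : Q y = 0 := by
    rw [hy, he]; simp [Cfsg.quadFormPlus]
  have hy0 : y ≠ 0 := fun h => by
    have h' := e.map_eq_zero_iff.1 (Subtype.ext h)
    simpa using congrFun h' (Sum.inl 0)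
  have hyp : ∀ i, i ≠ i₀ → f y (v i) = 0 ∧ f y (N (v i)) = 0 := fun i hi => by
    have h := mem_frameOrth.1 (e (Pi.single (Sum.inl 0) 1)).2
    refine ⟨h.1 ⟨i, hi⟩, ?_⟩
    rw [← hN'v ⟨i, hi⟩]
    exact h.2 ⟨i, hi⟩
  have hfull : 2 * Fintype.card (Fin s) = Module.finrank F V := by
    rw [Module.finrank_fintype_fun_eq_card]; simp; omega
  have hy2 := eq_comb hN hv hfull y
  rw [comb_apply, Finset.sum_eq_single i₀ (fun i _ hi => by simp [(hyp i hi).2]) (by simp),
    Finset.sum_eq_single i₀ (fun i _ hi => by simp [(hyp i hi).1]) (by simp)] at hy2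
  simp only [id] at hy2
  generalize f y (N (v i₀)) = a at hy2
  generalize f y (v i₀) = b at hy2
  rw [hy2, QuadraticMap.map_add (⇑Q), QuadraticMap.map_smul, QuadraticMap.map_smul, hQN, hQf, map_smul,
    map_smul, LinearMap.smul_apply, hv.dual] at hQy
  simp only [id, if_true, smul_eq_mul, mul_one] at hQy
  have ha : a ≠ 0 := fun ha => by
    subst ha
    have hb : b = 0 := mul_self_eq_zero.1 (by linear_combination hQy)
    exact hy0 (by rw [hy2, hb]; simp)
  let c : Fin s → Fin s → F := fun i j => if i = i₀ ∧ j = i₀ then b / a else 0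
  refine ⟨_, Frame.shift hN hv c fun i j => by simp [c, and_comm], fun i => ?_⟩
  rw [Q_shift hQf hQN hN hv]
  simp only [id, if_true]
  by_cases hi : i = i₀
  · subst hi
    rw [Finset.sum_eq_single i₀ (fun j _ hj => by simp [c, hj]) (by simp)]
    simp only [c, and_self, if_true]
    field_simp
    linear_combination hQy
  · simp [c, hi, hv0 i hi]

theorem exists_zero_frame_plus {N : V →ₗ[F] V} {s : ℕ} {u : Fin s → V} (h1 : 1 ≤ s) (hle : s ≤ m)
    (hN : SelfAdj (polarBilin (quadPlus F m)) N) (hF : Frame (polarBilin (quadPlus F m)) N id u)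
    (hQN : ∀ v, quadPlus F m (N v) = polarBilin (quadPlus F m) v (N v)) :
    ∃ u' : Fin s → V, Frame (polarBilin (quadPlus F m)) N id u' ∧ ∀ i, quadPlus F m (u' i) = 0 := by
  rcases lt_or_eq_of_le hle with h | h
  · exact exists_zero_frame_of_lt (fun _ _ => rfl) hQN hN hF (by
      rw [Module.finrank_fintype_fun_eq_card]; simp; omega)
  · exact exists_zero_frame_full h h1 hN hF hQN

variable {ι : Type} [Fintype ι] [DecidableEq ι] {Q : QuadraticForm F (ι → F)}

theorem card_cent_iso_eq (x : Cfsg.isometryGroup F ⇑Q) :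
    Nat.card {g : Cfsg.isometryGroup F ⇑Q // g * x = x * g} =
      Nat.card {g : (ι → F) ≃ₗ[F] (ι → F) // g ∈ isom Q ∧
        ∀ v, g (nilM (x : GL ι F).1 v) = nilM (x : GL ι F).1 (g v)} := by
  let e : {g : (ι → F) ≃ₗ[F] (ι → F) // g ∈ isom Q ∧ ∀ v, g (nilM (x : GL ι F).1 v) = nilM (x : GL ι F).1 (g v)} ≃
      {g : isom Q // ∀ v, (g : (ι → F) ≃ₗ[F] (ι → F)) (nilM (x : GL ι F).1 v) = nilM (x : GL ι F).1 ((g : (ι → F) ≃ₗ[F] (ι → F)) v)} :=
    { toFun := fun g => ⟨⟨g.1, g.2.1⟩, g.2.2⟩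
      invFun := fun g => ⟨g.1.1, g.1.2, g.2⟩
      left_inv := fun g => rfl
      right_inv := fun g => rfl }
  rw [Nat.card_congr e]
  refine Nat.card_congr ((isoEquiv Q).toEquiv.subtypeEquiv fun g => ?_)
  rw [Subtype.ext_iff, Units.ext_iff, Subgroup.coe_mul, Subgroup.coe_mul, Units.val_mul, Units.val_mul,
    Matrix.ext_iff_mulVec]
  refine forall_congr' fun v => ?_
  rw [← mulVec_mulVec, ← mulVec_mulVec, nilM_apply, nilM_apply, MulEquiv.toEquiv_eq_coe, EquivLike.coe_coe,
    coe_isoEquiv, map_sub, glEquiv_apply, glEquiv_apply, sub_left_inj]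

/-- A commuting element outside `Ω` halves the centraliser. -/
theorem two_mul_card_cent_Omega (hidx : (Cfsg.Omega F ⇑Q).index = 2) {x r : Cfsg.isometryGroup F ⇑Q}
    (hr : r * x = x * r) (hrO : r ∉ Cfsg.Omega F ⇑Q) :
    2 * Nat.card {g : Cfsg.Omega F ⇑Q // (g : Cfsg.isometryGroup F ⇑Q) * x = x * (g : Cfsg.isometryGroup F ⇑Q)} =
      Nat.card {g : Cfsg.isometryGroup F ⇑Q // g * x = x * g} := by
  classical
  haveI : Finite (Cfsg.isometryGroup F ⇑Q) := inferInstance
  let C : Subgroup (Cfsg.isometryGroup F ⇑Q) := Subgroup.centralizer {x}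
  have hC : ∀ g, g ∈ C ↔ g * x = x * g := fun g => Subgroup.mem_centralizer_singleton_iff
  let H := (Cfsg.Omega F ⇑Q).subgroupOf C
  have hH : H.index = 2 := by
    refine Subgroup.index_eq_two_iff.2 ⟨⟨r, (hC r).2 hr⟩, fun b => ?_⟩
    show Xor (((b : Cfsg.isometryGroup F ⇑Q) * r) ∈ Cfsg.Omega F ⇑Q) ((b : Cfsg.isometryGroup F ⇑Q) ∈ Cfsg.Omega F ⇑Q)
    have h := Subgroup.mul_mem_iff_of_index_two hidx (a := (b : Cfsg.isometryGroup F ⇑Q)) (b := r)
    by_cases hb : (b : Cfsg.isometryGroup F ⇑Q) ∈ Cfsg.Omega F ⇑Q <;> simp [xor_def, hb, hrO, h]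
  have h := H.card_mul_index
  rw [hH, mul_comm] at h
  refine Eq.trans ?_ (h.trans (Nat.card_congr (Equiv.subtypeEquivRight hC)))
  congr 1
  exact Nat.card_congr
    { toFun := fun g => ⟨⟨g.1.1, (hC _).2 g.2⟩, g.1.2⟩
      invFun := fun h => ⟨⟨h.1.1, h.2⟩, (hC _).1 h.1.2⟩
      left_inv := fun g => rfl
      right_inv := fun h => rfl }

/-- A fixed non-singular vector halves the centraliser. -/
theorem two_mul_card_cent_of_fixed (h2 : (2 : F) = 0) (hQ : (polarBilin Q).Nondegenerate)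
    (hd : Nat.card F ≠ 2 ∨ Fintype.card ι ≠ 4) (hn : 1 ≤ Fintype.card ι) {x : Cfsg.isometryGroup F ⇑Q} {z : ι → F}
    (hz : (x : GL ι F).1 *ᵥ z = z) (hz0 : Q z ≠ 0) :
    2 * Nat.card {g : Cfsg.Omega F ⇑Q // (g : Cfsg.isometryGroup F ⇑Q) * x = x * (g : Cfsg.isometryGroup F ⇑Q)} =
      Nat.card {g : Cfsg.isometryGroup F ⇑Q // g * x = x * g} := by
  refine two_mul_card_cent_Omega (index_Omega_two h2 hQ hd hn) (r := listGL Q [⟨z, hz0⟩]) ?_ ?_
  · have hr : ∀ v : ι → F, (listGL Q [⟨z, hz0⟩] : GL ι F).1 *ᵥ v = v - ((Q z)⁻¹ * polar Q v z) • z := fun v => by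
      rw [← glEquiv_apply, ← coe_isoEquiv, isoEquiv_listGL]
      exact Forms.refl_apply hz0 v
    refine Subtype.ext (Units.ext (Matrix.ext_iff_mulVec.2 fun v => ?_))
    rw [Subgroup.coe_mul, Subgroup.coe_mul, Units.val_mul, Units.val_mul, ← mulVec_mulVec, ← mulVec_mulVec, hr,
      hr, mulVec_sub, mulVec_smul, hz]
    have hp : polar Q ((x : GL ι F).1 *ᵥ v) z = polar Q v z := by
      conv_lhs => rw [← hz]
      rw [polar_iso]
    rw [hp]
  · rw [mem_iff_even h2 hQ (gen_of_hd hQ hd)]; simp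

local notation "G" => Cfsg.isometryGroup F ⇑(quadPlus F m)

/-- The non-alternating centralisers in `Ω`. -/
theorem card_cent_Omega_diag (h2 : (2 : F) = 0) (hd : Nat.card F ≠ 2 ∨ m ≠ 2) (x : G) (hx : x * x = 1) {s : ℕ}
    (hs : ((x : GL (Fin m ⊕ Fin m) F).1 - 1).rank = s) (h1 : 1 ≤ s)
    (hna : ¬ IsAltN (polarBilin (quadPlus F m)) (nilM (x : GL (Fin m ⊕ Fin m) F).1)) :
    Nat.card {g : Cfsg.Omega F ⇑(quadPlus F m) // (g : G) * x = x * (g : G)} =
      Nat.card (Orth F s) * Fintype.card F ^ (2 * (m - s) * (s - 1) + s * (s - 1) / 2) *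
        spOrd (Fintype.card F) (m - s) := by
  have hQ := nondegenerate_quadPlus (F := F) m
  have hN := selfAdj_iso h2 hQ hx
  have hQN := Q_nilM h2 x
  have hle := rank_le hN
  obtain ⟨k, u₀, hu₀⟩ := exists_frame_diag hN hna
  have hk : k = s := by
    rw [← hs, rank_nilM, finrank_range hN hu₀, Fintype.card_fin]
  subst hk
  obtain ⟨u, hu, hu0⟩ := exists_zero_frame_plus h1 (hs ▸ hle) hN hu₀ hQN
  refine Nat.eq_of_mul_eq_mul_left (show 0 < 2 by omega) ?_
  rw [two_mul_card_cent_of_fixed h2 hQ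
      (hd.imp id fun h => by rw [Fintype.card_sum, Fintype.card_fin]; omega)
      (by rw [Fintype.card_sum, Fintype.card_fin]; omega)
      (x := x) (z := nilM (x : GL (Fin m ⊕ Fin m) F).1 (u ⟨0, h1⟩)) ?_ ?_,
    card_cent_iso_eq, card_comm_plus_diag h1 (k := m - k) (by omega) hN hu hQN hu0]
  · rw [← sub_eq_zero, ← nilM_apply]; exact hN.sq _
  · rw [hQN, hu.dual]; simp

/-- The alternating centralisers in `Ω`. -/
theorem card_cent_Omega_alt (h2 : (2 : F) = 0) (hd : Nat.card F ≠ 2 ∨ m ≠ 2) (x : G) (hx : x * x = 1) {s : ℕ}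
    (hs : ((x : GL (Fin m ⊕ Fin m) F).1 - 1).rank = s) (h1 : 1 ≤ s)
    (ha : IsAltN (polarBilin (quadPlus F m)) (nilM (x : GL (Fin m ⊕ Fin m) F).1)) :
    (if s = m then 1 else 2) * Nat.card {g : Cfsg.Omega F ⇑(quadPlus F m) // (g : G) * x = x * (g : G)} =
      spOrd (Fintype.card F) (s / 2) * Fintype.card F ^ (2 * (m - s) * s + s * (s - 1) / 2) *
        plusOrd (Fintype.card F) (m - s) := by
  classical
  have hQ := nondegenerate_quadPlus (F := F) m
  have hN := selfAdj_iso h2 hQ hx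
  have hQN := Q_nilM h2 x
  have hle := rank_le hN
  obtain ⟨r, u₀, hu₀⟩ := exists_frame_alt hN ha
  have hk : r + r = s := by
    rw [← hs, rank_nilM, finrank_range hN hu₀]; simp
  obtain ⟨u, hu, hu0⟩ := exists_zero_frame_alt (Q := quadPlus F m) (fun _ _ => rfl) hQN hN hu₀
    (fun i => by cases i <;> simp)
  have hd' : Nat.card F ≠ 2 ∨ Fintype.card (Fin m ⊕ Fin m) ≠ 4 :=
    hd.imp id fun h => by rw [Fintype.card_sum, Fintype.card_fin]; omega
  have hcard := card_comm_plus_alt (k := m - s) (show r + r + (m - s) = m by omega) hN hu hQN hu0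
  rw [hk, show r = s / 2 by omega] at hcard
  rw [← hcard, ← card_cent_iso_eq]
  by_cases hsm : s = m
  · rw [if_pos hsm, one_mul]
    have hev : Even (Module.finrank F (LinearMap.range (nil x))) := ⟨r, by
      rw [← rank_eq, hs]; omega⟩
    have hW : IsMaxSingular (quadPlus F m) (LinearMap.range (nil x)) := by
      refine ⟨by rw [← rank_eq, Module.finrank_fintype_fun_eq_card, hs]; simp; omega, ?_⟩
      rintro _ ⟨v, rfl⟩
      show quadPlus F m (nilM (x : GL (Fin m ⊕ Fin m) F).1 v) = 0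
      rw [hQN]; exact ha v
    exact Nat.card_congr
      { toFun := fun g => ⟨g.1.1, g.2⟩
        invFun := fun g => ⟨⟨g.1, mem_Omega_of_comm h2 hQ (gen_of_hd hQ hd') (t := x)
          (mul_inv_eq_iff_eq_mul.2 g.2) hW hev⟩, g.2⟩
        left_inv := fun g => rfl
        right_inv := fun g => rfl }
  · rw [if_neg hsm]
    obtain ⟨e, he⟩ := exists_frameOrth_plus (k := m - s) (by simp; omega) hN hu hQN hu0
    let j : Fin (m - s) := ⟨0, by omega⟩
    set y := e (Pi.single (Sum.inl j) 1 + Pi.single (Sum.inr j) 1)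
    refine two_mul_card_cent_of_fixed h2 hQ hd' (by rw [Fintype.card_sum, Fintype.card_fin]; omega)
      (z := (y : Fin m ⊕ Fin m → F)) ?_ ?_
    · rw [← sub_eq_zero, ← nilM_apply]
      exact hu.rad _ (mem_frameOrth.1 y.2).2
    · rw [he]
      simp [Cfsg.quadFormPlus, Pi.single_apply]

theorem spOrd_fin (q j : ℕ) : q ^ (j ^ 2) * ∏ i : Fin j, (q ^ (2 * ((i : ℕ) + 1)) - 1) = spOrd q j := by
  rw [spOrd, Fin.prod_univ_eq_prod_range (fun i => q ^ (2 * (i + 1)) - 1) j]

theorem plusOrd_half (q j : ℕ) :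
    (if j = 0 then 1 else 2) * (if j = 0 then 1 else q ^ (j * (j - 1)) * (q ^ j - 1) *
      ∏ i : Fin (j - 1), (q ^ (2 * ((i : ℕ) + 1)) - 1)) = plusOrd q j := by
  cases j with
  | zero => rfl
  | succ j =>
    rw [if_neg (Nat.succ_ne_zero j), if_neg (Nat.succ_ne_zero j), plusOrd,
      Fin.prod_univ_eq_prod_range (fun i => q ^ (2 * (i + 1)) - 1) (j + 1 - 1), Nat.add_sub_cancel]
    ring

theorem exponent_eqs {s k : ℕ} (h1 : 1 ≤ s) :
    2 * k * s + s + s * (s - 1) / 2 = 2 * (s + k) * s - (3 * s ^ 2 - s) / 2 ∧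
    2 * k * (s - 1) + s * (s - 1) / 2 = 2 * (s + k) * (s - 1) - (3 * s ^ 2 - 3 * s) / 2 ∧
    2 * k * s + s * (s - 1) / 2 = 2 * (s + k) * s - (3 * s ^ 2 + s) / 2 ∧
    (2 ≤ s → 2 * k * s + s + s * (s - 1) / 2 + (s - 1) = 2 * (s + k) * s - (3 * s ^ 2 - 3 * s) / 2 - 1) ∧
    (2 ≤ s → 2 * k * (s - 1) + s * (s - 1) / 2 + (s - 1) = 2 * (s + k) * (s - 1) - (3 * s ^ 2 - 5 * s) / 2 - 1) := by
  obtain ⟨t, rfl⟩ : ∃ t, s = t + 1 := ⟨s - 1, by omega⟩
  obtain ⟨j, hj⟩ : ∃ j, (t + 1) * t = j + j := by rw [mul_comm]; exact Nat.even_mul_succ_self t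
  simp only [Nat.add_sub_cancel]
  rw [hj, show (t + 1) ^ 2 = j + j + (t + 1) by rw [← hj]; ring,
    show 2 * (t + 1 + k) * (t + 1) = 2 * k * (t + 1) + 2 * (j + j + (t + 1)) by rw [← hj]; ring,
    show 2 * (t + 1 + k) * t = 2 * k * t + 2 * (j + j) by rw [← hj]; ring]
  generalize 2 * k * (t + 1) = A
  generalize 2 * k * t = B
  refine ⟨by omega, by omega, by omega, fun h => by omega, fun h => ?_⟩
  have h3 : t + 1 ≤ j + j := by rw [← hj]; exact Nat.le_mul_of_pos_right _ (by omega)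
  omega

end CfsgLib.InvTwo
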