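import Cfsg.Agent.InvTwo.SymForm

/-!
Counting the lifts of a normal basis.
-/

set_option autoImplicit false

namespace CfsgLib.InvTwo

variable {F : Type*} [Field F] [Fintype F] {ι : Type} [Fintype ι] [DecidableEq ι] {W : Type*} [AddCommGroup W]
  [Module F W] [Finite W]

/-- Strictly ordered pairs. -/
abbrev Lower (ι : Type) [Fintype ι] := {p : ι × ι // Fintype.equivFin ι p.2 < Fintype.equivFin ι p.1}

omit [DecidableEq ι] in
theorem card_lower : Nat.card (Lower ι) = Fintype.card ι * (Fintype.card ι - 1) / 2 := by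
  classical
  let e := Fintype.equivFin ι
  let E : Lower ι ≃ Σ i : Fin (Fintype.card ι), Fin i.1 :=
    { toFun := fun p => ⟨e p.1.1, ⟨(e p.1.2).1, p.2⟩⟩
      invFun := fun s => ⟨(e.symm s.1, e.symm ⟨s.2.1, lt_trans s.2.2 s.1.2⟩), by
        show e (e.symm _) < e (e.symm _)
        rw [Equiv.apply_symm_apply, Equiv.apply_symm_apply]
        exact s.2.2⟩
      left_inv := fun p => Subtype.ext (Prod.ext (e.symm_apply_apply _) (by simp))
      right_inv := fun s => by
        refine Sigma.ext (e.apply_symm_apply _) ?_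
        exact (Fin.heq_ext_iff (congrArg Fin.val (e.apply_symm_apply s.1))).2
          (congrArg Fin.val (e.apply_symm_apply ⟨s.2.1, _⟩)) }
  rw [Nat.card_congr E, Nat.card_sigma, ← Finset.sum_range_id, Finset.sum_range]
  exact Finset.sum_congr rfl fun i _ => Nat.card_fin _

/-- Symmetric functions on pairs. -/
def symFun (F : Type*) [Field F] (ι : Type) [Fintype ι] : AddSubgroup (ι → ι → F) where
  carrier := {S | ∀ i k, S i k = S k i}
  add_mem' := fun ha hb i k => by simp [ha i k, hb i k]
  zero_mem' := fun i k => rfl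
  neg_mem' := fun ha i k => by simp [ha i k]

theorem card_symFun : Nat.card (symFun F ι) = Fintype.card F ^ Fintype.card ι * Fintype.card F ^ Nat.card (Lower ι) := by
  classical
  let e := Fintype.equivFin ι
  let E : symFun F ι ≃ (ι → F) × (Lower ι → F) :=
    { toFun := fun S => (fun i => S.1 i i, fun p => S.1 p.1.1 p.1.2)
      invFun := fun d => ⟨fun i k => if h : e k < e i then d.2 ⟨(i, k), h⟩
        else if h' : e i < e k then d.2 ⟨(k, i), h'⟩ else d.1 i, fun i k => by
          rcases lt_trichotomy (e i) (e k) with h | h | h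
          · simp [h, h.not_gt]
          · obtain rfl := e.injective h; rfl
          · simp [h, h.not_gt]⟩
      left_inv := fun S => Subtype.ext (funext fun i => funext fun k => by
        rcases lt_trichotomy (e i) (e k) with h | h | h
        · simp [h, h.not_gt, S.2 k i]
        · obtain rfl := e.injective h; simp
        · simp [h])
      right_inv := fun d => Prod.ext (funext fun i => by simp) (funext fun p => by
        have h : e p.1.2 < e p.1.1 := p.2
        simp [h]) }
  rw [Nat.card_congr E, Nat.card_prod, Nat.card_fun, Nat.card_fun, Nat.card_eq_fintype_card (α := ι),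
    Nat.card_eq_fintype_card (α := F)]

/-- The triangular solution of the orthogonality equations. -/
noncomputable def triD (f : W → W → F) (z : ι → W) : ι → ι → F := fun i k =>
  if Fintype.equivFin ι k < Fintype.equivFin ι i then f (z i) (z k) else 0

variable (h2 : (2 : F) = 0) (f : W →ₗ[F] W →ₗ[F] F) (hf : ∀ x, f x x = 0) (hs : ∀ x y, f x y = f y x)
include h2 hf hs

theorem triD_eq (z : ι → W) (i k : ι) :
    triD (fun x y => f x y) z i k + triD (fun x y => f x y) z k i + f (z i) (z k) = 0 := by
  rcases lt_trichotomy (Fintype.equivFin ι i) (Fintype.equivFin ι k) with h | h | h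
  · simp only [triD, if_neg h.not_gt, if_pos h, hs (z k) (z i)]
    linear_combination f (z i) (z k) * h2
  · obtain rfl := (Fintype.equivFin ι).injective h
    simp [triD, hf]
  · simp only [triD, if_pos h, if_neg h.not_gt]
    linear_combination f (z i) (z k) * h2

omit hf hs in
theorem sym_of_eq {D D₀ : ι → ι → F} {c : ι → ι → F} (h : ∀ i k, D i k + D k i + c i k = 0)
    (h0 : ∀ i k, D₀ i k + D₀ k i + c i k = 0) : D - D₀ ∈ symFun F ι := fun i k => by
  simp only [Pi.sub_apply]
  linear_combination h i k - h0 i k + (D₀ k i - D k i) * h2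

omit [Fintype F] [DecidableEq ι] hf hs in
theorem eq_add_sym {D₀ : ι → ι → F} {c : ι → ι → F} (h0 : ∀ i k, D₀ i k + D₀ k i + c i k = 0) {S : ι → ι → F}
    (hS : S ∈ symFun F ι) (i k : ι) : (D₀ + S) i k + (D₀ + S) k i + c i k = 0 := by
  simp only [Pi.add_apply]
  rw [hS k i]
  linear_combination h0 i k + S i k * h2

theorem card_lifts_sp :
    Nat.card {p : (ι → W) × (ι → ι → F) // ∀ i k, p.2 i k + p.2 k i + f (p.1 i) (p.1 k) = 0} =
      Nat.card W ^ Fintype.card ι * (Fintype.card F ^ Fintype.card ι * Fintype.card F ^ Nat.card (Lower ι)) := by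
  rw [← card_symFun (F := F), show Nat.card W ^ Fintype.card ι = Nat.card (ι → W) by
    rw [Nat.card_fun, Nat.card_eq_fintype_card (α := ι)], ← Nat.card_prod]
  exact Nat.card_congr
    { toFun := fun p => (p.1.1, ⟨p.1.2 - triD (fun x y => f x y) p.1.1,
        sym_of_eq h2 p.2 (triD_eq h2 f hf hs _)⟩)
      invFun := fun q => ⟨(q.1, triD (fun x y => f x y) q.1 + q.2.1), eq_add_sym h2 (triD_eq h2 f hf hs _) q.2.2⟩
      left_inv := fun p => Subtype.ext (Prod.ext rfl (add_sub_cancel _ _))
      right_inv := fun q => Prod.ext rfl (Subtype.ext (add_sub_cancel_left _ _)) }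

theorem card_lifts_alt (Qf : W → F) :
    Nat.card {p : (ι → W) × (ι → ι → F) //
        (∀ i k, p.2 i k + p.2 k i + f (p.1 i) (p.1 k) = 0) ∧ ∀ i, p.2 i i + Qf (p.1 i) = 0} =
      Nat.card W ^ Fintype.card ι * Fintype.card F ^ Nat.card (Lower ι) := by
  classical
  rw [show Nat.card W ^ Fintype.card ι = Nat.card (ι → W) by rw [Nat.card_fun, Nat.card_eq_fintype_card (α := ι)],
    show Fintype.card F ^ Nat.card (Lower ι) = Nat.card (Lower ι → F) by
      rw [Nat.card_fun, Nat.card_eq_fintype_card (α := F)], ← Nat.card_prod]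
  let e := Fintype.equivFin ι
  exact Nat.card_congr
    { toFun := fun p => (p.1.1, fun x => p.1.2 x.1.1 x.1.2)
      invFun := fun q => ⟨(q.1, fun i k => if h : e k < e i then q.2 ⟨(i, k), h⟩
          else if h' : e i < e k then q.2 ⟨(k, i), h'⟩ + f (q.1 i) (q.1 k) else Qf (q.1 i)), fun i k => by
          rcases lt_trichotomy (e i) (e k) with h | h | h
          · simp only [dif_neg h.not_gt, dif_pos h]
            linear_combination (q.2 ⟨(k, i), h⟩ + f (q.1 i) (q.1 k)) * h2
          · obtain rfl := e.injective h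
            simp only [lt_irrefl, dif_neg, not_false_iff, hf]
            linear_combination Qf (q.1 i) * h2
          · simp only [dif_pos h, dif_neg h.not_gt, hs (q.1 k) (q.1 i)]
            linear_combination (q.2 ⟨(i, k), h⟩ + f (q.1 i) (q.1 k)) * h2, fun i => by
          simp only [lt_irrefl, dif_neg, not_false_iff]
          linear_combination Qf (q.1 i) * h2⟩
      left_inv := fun p => Subtype.ext (Prod.ext rfl (funext fun i => funext fun k => by
        rcases lt_trichotomy (e i) (e k) with h | h | h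
        · simp only [dif_neg h.not_gt, dif_pos h]
          linear_combination p.2.1 i k - p.1.2 i k * h2
        · obtain rfl := e.injective h
          simp only [lt_irrefl, dif_neg, not_false_iff]
          linear_combination p.2.2 i - p.1.2 i i * h2
        · simp [h]))
      right_inv := fun q => Prod.ext rfl (funext fun x => by
        have h : e x.1.2 < e x.1.1 := x.2
        simp [h]) }

theorem quad_sum (Qf : W → F) (hQ0 : Qf 0 = 0) (hQ : ∀ x y, Qf (x + y) = Qf x + Qf y + f x y) (z : ι → W) :
    Qf (∑ i, z i) = (∑ i, Qf (z i)) + ∑ i, ∑ k, triD (fun x y => f x y) z i k := by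
  classical
  let e := Fintype.equivFin ι
  have key : ∀ S : Finset ι, Qf (∑ i ∈ S, z i) =
      (∑ i ∈ S, Qf (z i)) + ∑ i ∈ S, ∑ k ∈ S, triD (fun x y => f x y) z i k := by
    intro S
    induction S using Finset.induction_on with
    | empty => simp [hQ0]
    | insert j S hj ih =>
      rw [Finset.sum_insert hj, Finset.sum_insert hj, Finset.sum_insert hj, hQ, ih, Finset.sum_insert hj]
      have e1 : ∑ i ∈ S, ∑ k ∈ insert j S, triD (fun x y => f x y) z i k =
          ∑ i ∈ S, triD (fun x y => f x y) z i j + ∑ i ∈ S, ∑ k ∈ S, triD (fun x y => f x y) z i k := by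
        rw [← Finset.sum_add_distrib]
        exact Finset.sum_congr rfl fun i _ => Finset.sum_insert hj
      rw [e1, show triD (fun x y => f x y) z j j = 0 by simp [triD], zero_add, map_sum]
      have e2 : ∑ i ∈ S, f (z j) (z i) =
          ∑ i ∈ S, triD (fun x y => f x y) z j i + ∑ i ∈ S, triD (fun x y => f x y) z i j := by
        rw [← Finset.sum_add_distrib]
        refine Finset.sum_congr rfl fun i _ => ?_
        linear_combination triD_eq h2 f hf hs z j i - (triD (fun x y => f x y) z j i +
          triD (fun x y => f x y) z i j) * h2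
      rw [e2]
      ring
  exact key Finset.univ

omit [Finite W] f hf hs in
/-- The sum of the squares is congruent to the sum. -/
theorem sum_sq_sub_mem (S : Finset (ι × ι)) (a : ι × ι → F) :
    ∑ p ∈ S, a p ^ 2 + ∑ p ∈ S, a p ∈ (wp h2).range := by
  refine ⟨∑ p ∈ S, a p, ?_⟩
  rw [map_sum, ← Finset.sum_add_distrib]
  exact Finset.sum_congr rfl fun p _ => by rw [wp_apply, add_comm]

/-- The defect map. -/
def defect : symFun F ι →+ (ι → F) :=
  AddMonoidHom.mk' (fun S i => S.1 i i + ∑ k, S.1 i k ^ 2) fun S T => funext fun i => by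
    simp only [AddSubgroup.coe_add, Pi.add_apply]
    rw [show ∑ k, (S.1 i k + T.1 i k) ^ 2 = ∑ k, (S.1 i k ^ 2 + T.1 i k ^ 2) from
      Finset.sum_congr rfl fun k _ => by linear_combination S.1 i k * T.1 i k * h2, Finset.sum_add_distrib]
    ring

omit [Finite W] f hf hs in
theorem mem_range_defect (i₀ : ι) (r : ι → F) : r ∈ (defect (ι := ι) h2).range ↔ ∑ i, r i ∈ (wp h2).range := by
  classical
  constructor
  · rintro ⟨S, rfl⟩
    refine ⟨∑ i, S.1 i i, ?_⟩
    rw [map_sum]
    show _ = ∑ i, (S.1 i i + ∑ k, S.1 i k ^ 2)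
    rw [Finset.sum_add_distrib]
    simp only [wp_apply, Finset.sum_add_distrib]
    congr 1
    rw [← sub_eq_zero, ← Finset.sum_sub_distrib]
    have h3 : ∑ i, ∑ k, (if k = i then 0 else S.1 i k ^ 2) = 0 := by
      rw [← Finset.sum_product']
      refine Finset.sum_ninvolution Prod.swap (fun p => ?_) (fun {p} hp => ?_) (fun p => by simp) (fun p => rfl)
      · by_cases h : p.2 = p.1
        · simp [h]
        · simp only [if_neg h, Prod.fst_swap, Prod.snd_swap, if_neg (Ne.symm h)]
          rw [S.2 p.2 p.1]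
          linear_combination S.1 p.1 p.2 ^ 2 * h2
      · intro h
        apply hp
        exact if_pos (congrArg Prod.fst h : p.2 = p.1)
    calc ∑ i, (S.1 i i ^ 2 - ∑ k, S.1 i k ^ 2) = -∑ i, ∑ k, (if k = i then 0 else S.1 i k ^ 2) := by
          rw [← Finset.sum_neg_distrib]
          refine Finset.sum_congr rfl fun i _ => ?_
          rw [show ∑ k, S.1 i k ^ 2 = ∑ k, ((if k = i then S.1 i k ^ 2 else 0) + if k = i then 0 else S.1 i k ^ 2)
            from Finset.sum_congr rfl fun k _ => by split_ifs <;> simp,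
            Finset.sum_add_distrib, Finset.sum_ite_eq', if_pos (Finset.mem_univ _)]
          ring
      _ = 0 := by rw [h3, neg_zero]
  · rintro ⟨d, hd⟩
    rw [wp_apply] at hd
    choose q hq using fun i => exists_sqrt h2 (r i)
    let S : ι → ι → F := fun i k => if i = i₀ then (if k = i₀ then d else q k) else if k = i₀ then q i else 0
    refine ⟨⟨S, fun i k => ?_⟩, funext fun i => ?_⟩
    · by_cases h1 : i = i₀ <;> by_cases h3 : k = i₀ <;> simp [S, h1, h3]
    · show S i i + ∑ k, S i k ^ 2 = r i
      by_cases hi : i = i₀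
      · subst hi
        rw [show S i i = d by simp [S], ← Finset.add_sum_erase _ _ (Finset.mem_univ i), show S i i ^ 2 = d ^ 2 by simp [S],
          show ∑ k ∈ Finset.univ.erase i, S i k ^ 2 = ∑ k ∈ Finset.univ.erase i, r k from
            Finset.sum_congr rfl fun k hk => by simp [S, (Finset.mem_erase.1 hk).1, hq]]
        rw [← Finset.add_sum_erase _ _ (Finset.mem_univ i)] at hd
        linear_combination hd + (∑ k ∈ Finset.univ.erase i, r k) * h2
      · rw [show S i i = 0 by simp [S, hi], Finset.sum_eq_single i₀ (fun k _ hk => by simp [S, hi, hk])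
          (fun h => absurd (Finset.mem_univ _) h), show S i i₀ = q i by simp [S, hi], hq, zero_add]

omit [Finite W] f hf hs in
theorem two_mul_card_range_defect (i₀ : ι) :
    2 * Nat.card (defect (ι := ι) h2).range = Fintype.card F ^ Fintype.card ι := by
  classical
  let L : (ι → F) →+ F := AddMonoidHom.mk' (fun r => ∑ i, r i) fun a b => Finset.sum_add_distrib
  have hL : Function.Surjective L := fun c => ⟨Pi.single i₀ c, by simp [L]⟩
  have e : (defect (ι := ι) h2).range = (wp h2).range.comap L := by
    ext r; exact mem_range_defect h2 i₀ r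
  have hidx : ((wp h2).range.comap L).index = 2 := by
    rw [AddSubgroup.index_comap_of_surjective _ hL]
    exact index_wp h2
  rw [e, ← hidx, mul_comm, AddSubgroup.card_mul_index, Nat.card_fun, Nat.card_eq_fintype_card (α := ι),
    Nat.card_eq_fintype_card (α := F)]

omit [Finite W] f hf hs in
theorem card_defect_fibre (i₀ : ι) {r : ι → F} (hr : r ∈ (defect (ι := ι) h2).range) :
    Nat.card {S : symFun F ι // defect h2 S = r} = 2 * Fintype.card F ^ Nat.card (Lower ι) := by
  obtain ⟨S₀, rfl⟩ := hr
  have h1 : Nat.card {S : symFun F ι // defect h2 S = defect h2 S₀} = Nat.card (defect (ι := ι) h2).ker :=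
    Nat.card_congr ((Equiv.subRight S₀).subtypeEquiv fun S => by simp [AddMonoidHom.mem_ker, sub_eq_zero])
  rw [h1]
  have h3 := (defect (ι := ι) h2).ker.card_mul_index
  rw [AddSubgroup.index_ker, card_symFun] at h3
  have h4 := two_mul_card_range_defect (ι := ι) h2 i₀
  refine Nat.eq_of_mul_eq_mul_right (m := Nat.card (defect (ι := ι) h2).range) Nat.card_pos ?_
  rw [h3, ← h4]
  ring

theorem card_lifts_diag (i₀ : ι) (Qf : W → F) (hQ0 : Qf 0 = 0) (hQ : ∀ x y, Qf (x + y) = Qf x + Qf y + f x y) :
    Nat.card {p : (ι → W) × (ι → ι → F) //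
        (∀ i k, p.2 i k + p.2 k i + f (p.1 i) (p.1 k) = 0) ∧
        ∀ i, p.2 i i + ∑ k, p.2 i k ^ 2 + Qf (p.1 i) = 0} =
      Nat.card W ^ (Fintype.card ι - 1) * Nat.card {w : W // Qf w ∈ (wp h2).range} *
        (2 * Fintype.card F ^ Nat.card (Lower ι)) := by
  classical
  haveI := Fintype.ofFinite W
  let t : (ι → W) → ι → ι → F := fun z => triD (fun x y => f x y) z
  let r : (ι → W) → ι → F := fun z i => t z i i + (∑ k, t z i k ^ 2) + Qf (z i)
  let E : {p : (ι → W) × (ι → ι → F) // (∀ i k, p.2 i k + p.2 k i + f (p.1 i) (p.1 k) = 0) ∧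
        ∀ i, p.2 i i + ∑ k, p.2 i k ^ 2 + Qf (p.1 i) = 0} ≃ Σ z : ι → W, {S : symFun F ι // defect h2 S = r z} :=
    { toFun := fun p => ⟨p.1.1, ⟨⟨p.1.2 - t p.1.1, sym_of_eq h2 p.2.1 (triD_eq h2 f hf hs _)⟩, funext fun i => by
        have h3 := p.2.2 i
        show (p.1.2 - t p.1.1) i i + ∑ k, (p.1.2 - t p.1.1) i k ^ 2 =
          t p.1.1 i i + (∑ k, t p.1.1 i k ^ 2) + Qf (p.1.1 i)
        simp only [Pi.sub_apply]
        rw [show ∑ k, (p.1.2 i k - t p.1.1 i k) ^ 2 = ∑ k, p.1.2 i k ^ 2 + ∑ k, t p.1.1 i k ^ 2 by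
          rw [← Finset.sum_add_distrib]
          exact Finset.sum_congr rfl fun k _ => by linear_combination (-(p.1.2 i k * t p.1.1 i k)) * h2]
        linear_combination h3 - (t p.1.1 i i + Qf (p.1.1 i)) * h2⟩⟩
      invFun := fun s => ⟨(s.1, t s.1 + s.2.1.1), eq_add_sym h2 (triD_eq h2 f hf hs _) s.2.1.2, fun i => by
        have h3 : s.2.1.1 i i + ∑ k, s.2.1.1 i k ^ 2 = t s.1 i i + (∑ k, t s.1 i k ^ 2) + Qf (s.1 i) :=
          congrFun s.2.2 i
        simp only [Pi.add_apply]
        rw [show ∑ k, (t s.1 i k + s.2.1.1 i k) ^ 2 = ∑ k, t s.1 i k ^ 2 + ∑ k, s.2.1.1 i k ^ 2 by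
          rw [← Finset.sum_add_distrib]
          exact Finset.sum_congr rfl fun k _ => by linear_combination (t s.1 i k * s.2.1.1 i k) * h2]
        linear_combination h3 + (t s.1 i i + (∑ k, t s.1 i k ^ 2) + Qf (s.1 i)) * h2⟩
      left_inv := fun p => Subtype.ext (Prod.ext rfl (add_sub_cancel _ _))
      right_inv := fun s => Sigma.ext rfl (heq_of_eq (Subtype.ext (Subtype.ext (add_sub_cancel_left _ _)))) }
  have hfib : ∀ z : ι → W, Nat.card {S : symFun F ι // defect h2 S = r z} =
      if Qf (∑ i, z i) ∈ (wp h2).range then 2 * Fintype.card F ^ Nat.card (Lower ι) else 0 := fun z => by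
    have hiff : r z ∈ (defect (ι := ι) h2).range ↔ Qf (∑ i, z i) ∈ (wp h2).range := by
      rw [mem_range_defect h2 i₀, quad_sum h2 f hf hs Qf hQ0 hQ]
      have hm : ∑ i, r z i + ((∑ i, Qf (z i)) + ∑ i, ∑ k, t z i k) ∈ (wp h2).range := by
        have hd : ∀ i, t z i i = 0 := fun i => by simp [t, triD]
        obtain ⟨d, hd'⟩ := sum_sq_sub_mem h2 (Finset.univ : Finset (ι × ι)) fun p => t z p.1 p.2
        refine ⟨d, hd'.trans ?_⟩
        simp only [r, hd, zero_add, Finset.sum_add_distrib, ← Finset.univ_product_univ, Finset.sum_product]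
        linear_combination -(∑ i, Qf (z i)) * h2
      constructor <;> intro h <;> have h' := (wp h2).range.sub_mem hm h
      · simpa [t, add_sub_cancel_left] using h'
      · simpa [t, add_sub_cancel_right] using h'
    split_ifs with h
    · exact card_defect_fibre h2 i₀ (hiff.2 h)
    · exact @Nat.card_of_isEmpty _ ⟨fun S => h (hiff.1 ⟨S.1, S.2⟩)⟩
  rw [Nat.card_congr E, Nat.card_sigma, Finset.sum_congr rfl fun z _ => hfib z, Finset.sum_ite,
    Finset.sum_const_zero, add_zero, Finset.sum_const, smul_eq_mul]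
  congr 1
  rw [← Fintype.card_subtype, ← Nat.card_eq_fintype_card]
  let E2 : {z : ι → W // Qf (∑ i, z i) ∈ (wp h2).range} ≃
      ({i // i ≠ i₀} → W) × {w : W // Qf w ∈ (wp h2).range} :=
    { toFun := fun z => (fun i => z.1 i, ⟨∑ i, z.1 i, z.2⟩)
      invFun := fun q => ⟨fun i => if h : i = i₀ then q.2.1 - ∑ j, q.1 j else q.1 ⟨i, h⟩, by
        rw [← Finset.add_sum_erase _ _ (Finset.mem_univ i₀), dif_pos rfl,
          Finset.sum_subtype (Finset.univ.erase i₀) (p := fun i => i ≠ i₀) (fun x => by simp)]
        rw [show ∑ a : {i // i ≠ i₀}, (if h : (a : ι) = i₀ then q.2.1 - ∑ j, q.1 j else q.1 ⟨a, h⟩) = ∑ a, q.1 a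
          from Finset.sum_congr rfl fun a _ => dif_neg a.2, sub_add_cancel]
        exact q.2.2⟩
      left_inv := fun z => Subtype.ext (funext fun i => by
        by_cases h : i = i₀
        · subst h
          simp only [dite_true]
          rw [← Finset.add_sum_erase _ _ (Finset.mem_univ i),
            Finset.sum_subtype (Finset.univ.erase i) (p := fun j => j ≠ i) (fun x => by simp), add_sub_cancel_right]
        · simp [h])
      right_inv := fun q => by
        refine Prod.ext (funext fun i => dif_neg i.2) (Subtype.ext ?_)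
        show ∑ i, _ = q.2.1
        dsimp only
        rw [← Finset.add_sum_erase _ _ (Finset.mem_univ i₀), dif_pos rfl,
          Finset.sum_subtype (Finset.univ.erase i₀) (p := fun i => i ≠ i₀) (fun x => by simp)]
        rw [show ∑ a : {i // i ≠ i₀}, (if h : (a : ι) = i₀ then q.2.1 - ∑ j, q.1 j else q.1 ⟨a, h⟩) = ∑ a, q.1 a
          from Finset.sum_congr rfl fun a _ => dif_neg a.2, sub_add_cancel] }
  rw [Nat.card_congr E2, Nat.card_prod, Nat.card_fun, Nat.card_eq_fintype_card (α := {i // i ≠ i₀}),
    Fintype.card_subtype_compl, Fintype.card_subtype_eq]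

end CfsgLib.InvTwo
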