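import Cfsg.Agent.InvTwo.Conj
import Cfsg.Agent.InvTwo.Lifts

/-!
Centralisers through frames.
-/

set_option autoImplicit false
set_option linter.unusedSectionVars false

open QuadraticMap

namespace CfsgLib.InvTwo

variable {F V : Type*} [Field F] [AddCommGroup V] [Module F V] [FiniteDimensional F V]
  {f : V →ₗ[F] V →ₗ[F] F} {N : V →ₗ[F] V} {ι : Type} [Fintype ι] [DecidableEq ι] {σ : ι → ι} {u : ι → V}

/-- The orthogonal complement of a frame. -/
noncomputable def frameOrth (f : V →ₗ[F] V →ₗ[F] F) (N : V →ₗ[F] V) (u : ι → V) : Submodule F V :=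
  LinearMap.ker (LinearMap.pi fun i => f.flip (u i)) ⊓ LinearMap.ker (LinearMap.pi fun i => f.flip (N (u i)))

theorem mem_frameOrth {x : V} :
    x ∈ frameOrth f N u ↔ (∀ i, f x (u i) = 0) ∧ ∀ i, f x (N (u i)) = 0 := by
  simp [frameOrth, funext_iff]

/-- The linear projection on the complement. -/
noncomputable def projL (f : V →ₗ[F] V →ₗ[F] F) (N : V →ₗ[F] V) (σ : ι → ι) (u : ι → V) : V →ₗ[F] V :=
  LinearMap.id - (comb N u) ∘ₗ
    (LinearMap.prod (LinearMap.pi fun i => f.flip (N (u (σ i)))) (LinearMap.pi fun i => f.flip (u (σ i))))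

theorem projL_apply (x : V) : projL f N σ u x = proj f N σ u x := rfl

variable (hN : SelfAdj f N) (hF : Frame f N σ u)
include hN hF

theorem projL_mem (x : V) : projL f N σ u x ∈ frameOrth f N u := by
  rw [projL_apply, mem_frameOrth]; exact ⟨proj_u hN hF x, proj_w hN hF x⟩

theorem proj_comb_add {w : V} (hw : w ∈ frameOrth f N u) (a : (ι → F) × (ι → F)) :
    proj f N σ u (comb N u a + w) = w := by
  rw [mem_frameOrth] at hw
  have h1 : (fun i => f (comb N u a + w) (N (u (σ i)))) = a.1 := funext fun i => by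
    rw [map_add, LinearMap.add_apply, f_comb_w hN hF, hw.2, add_zero, hF.invol]
  have h3 : (fun i => f (comb N u a + w) (u (σ i))) = a.2 := funext fun i => by
    rw [map_add, LinearMap.add_apply, f_comb_u hN hF, hw.1, add_zero, hF.invol]
  rw [proj, h1, h3, Prod.mk.eta, add_sub_cancel_left]

theorem exists_decomp (x : V) : ∃ a, ∃ w ∈ frameOrth f N u, comb N u a + w = x :=
  ⟨_, _, projL_mem hN hF x, by rw [projL_apply, proj, add_sub_cancel]⟩

theorem f_comb_orth (a : (ι → F) × (ι → F)) {w : V} (hw : w ∈ frameOrth f N u) : f w (comb N u a) = 0 := by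
  rw [mem_frameOrth] at hw
  simp [comb_apply, map_sum, hw.1, hw.2]

/-- The extension of a map of the complement. -/
noncomputable def extendL (h : frameOrth f N u →ₗ[F] frameOrth f N u) : V →ₗ[F] V :=
  LinearMap.id - projL f N σ u +
    (frameOrth f N u).subtype ∘ₗ h ∘ₗ (projL f N σ u).codRestrict _ (projL_mem hN hF)

theorem extendL_apply (h : frameOrth f N u →ₗ[F] frameOrth f N u) (a : (ι → F) × (ι → F)) (w : frameOrth f N u) :
    extendL hN hF h (comb N u a + (w : V)) = comb N u a + (h w : V) := by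
  simp only [extendL, LinearMap.add_apply, LinearMap.sub_apply, LinearMap.id_apply, LinearMap.comp_apply,
    Submodule.subtype_apply]
  rw [projL_apply, proj_comb_add hN hF w.2, add_sub_cancel_right]
  congr 2
  exact congrArg h (Subtype.ext (proj_comb_add hN hF w.2 a))

/-- The extension as an equivalence. -/
noncomputable def extendE (h : frameOrth f N u ≃ₗ[F] frameOrth f N u) : V ≃ₗ[F] V :=
  LinearEquiv.ofBijective (extendL hN hF (h : frameOrth f N u →ₗ[F] frameOrth f N u)) (by
    refine ⟨Function.LeftInverse.injective (g := extendL hN hF (h.symm : frameOrth f N u →ₗ[F] frameOrth f N u))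
      fun x => ?_, Function.RightInverse.surjective (g := extendL hN hF (h.symm : frameOrth f N u →ₗ[F] frameOrth f N u))
      fun x => ?_⟩ <;>
    · obtain ⟨a, w, hw, rfl⟩ := exists_decomp hN hF x
      rw [extendL_apply hN hF _ a ⟨w, hw⟩, extendL_apply]
      simp)

theorem extendE_apply (h : frameOrth f N u ≃ₗ[F] frameOrth f N u) (a : (ι → F) × (ι → F)) (w : frameOrth f N u) :
    extendE hN hF h (comb N u a + (w : V)) = comb N u a + (h w : V) :=
  extendL_apply hN hF _ a w

theorem extendE_u (h : frameOrth f N u ≃ₗ[F] frameOrth f N u) (i : ι) :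
    extendE hN hF h (u i) = u i ∧ extendE hN hF h (N (u i)) = N (u i) := by
  constructor
  · have := extendE_apply hN hF h (Pi.single i 1, 0) 0
    simpa [comb_single_left] using this
  · have := extendE_apply hN hF h (0, Pi.single i 1) 0
    simpa [comb_single_right] using this

omit hN hF in
/-- The restriction of a map fixing the frame. -/
theorem map_mem_frameOrth {g : V ≃ₗ[F] V} (hg : ∀ x y, f (g x) (g y) = f x y) (hu : ∀ i, g (u i) = u i)
    (hw : ∀ i, g (N (u i)) = N (u i)) (x : V) : g x ∈ frameOrth f N u ↔ x ∈ frameOrth f N u := by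
  simp only [mem_frameOrth]
  refine and_congr (forall_congr' fun i => ?_) (forall_congr' fun i => ?_)
  · conv_lhs => rw [← hu i, hg]
  · conv_lhs => rw [← hw i, hg]

theorem fix_comb {g : V ≃ₗ[F] V} (hu : ∀ i, g (u i) = u i) (hw : ∀ i, g (N (u i)) = N (u i))
    (a : (ι → F) × (ι → F)) : g (comb N u a) = comb N u a := by
  simp [comb_apply, map_sum, hu, hw]

theorem comm_of_fix {g : V ≃ₗ[F] V} (hg : ∀ x y, f (g x) (g y) = f x y) (hu : ∀ i, g (u i) = u i)
    (hw : ∀ i, g (N (u i)) = N (u i)) (x : V) : g (N x) = N (g x) :=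
  intertwines hN hN hF hF hg (fix_comb hN hF hu hw) x

/-- The stabiliser of a frame is the group of the complement. -/
theorem card_fix (P : (V ≃ₗ[F] V) → Prop) (P' : (frameOrth f N u ≃ₗ[F] frameOrth f N u) → Prop)
    (hPf : ∀ g, P g → ∀ x y, f (g x) (g y) = f x y)
    (hres : ∀ g h, P g → (∀ w : frameOrth f N u, g (w : V) = (h w : V)) → P' h)
    (hext : ∀ h, P' h → P (extendE hN hF h)) :
    Nat.card {g : V ≃ₗ[F] V // P g ∧ (∀ i, g (u i) = u i) ∧ ∀ i, g (N (u i)) = N (u i)} =
      Nat.card {h : frameOrth f N u ≃ₗ[F] frameOrth f N u // P' h} := by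
  refine Nat.card_congr
    { toFun := fun g => ⟨g.1.ofSubmodules _ _ ?_, ?_⟩
      invFun := fun h => ⟨extendE hN hF h.1, hext _ h.2, fun i => (extendE_u hN hF h.1 i).1,
        fun i => (extendE_u hN hF h.1 i).2⟩
      left_inv := fun g => ?_
      right_inv := fun h => ?_ }
  · ext x
    constructor
    · rintro ⟨y, hy, rfl⟩
      exact (map_mem_frameOrth (hPf _ g.2.1) g.2.2.1 g.2.2.2 y).2 hy
    · intro hx
      refine ⟨g.1.symm x, (map_mem_frameOrth (hPf _ g.2.1) g.2.2.1 g.2.2.2 _).1 ?_, g.1.apply_symm_apply x⟩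
      rwa [LinearEquiv.apply_symm_apply]
  · exact hres g.1 _ g.2.1 fun w => rfl
  · refine Subtype.ext (LinearEquiv.ext fun x => ?_)
    obtain ⟨a, w, hw, rfl⟩ := exists_decomp hN hF x
    show extendE hN hF _ (comb N u a + ((⟨w, hw⟩ : frameOrth f N u) : V)) = g.1 (comb N u a + w)
    rw [extendE_apply, map_add, fix_comb hN hF g.2.2.1 g.2.2.2]
    rfl
  · refine Subtype.ext (LinearEquiv.ext fun w => Subtype.ext ?_)
    show extendE hN hF h.1 (w : V) = (h.1 w : V)
    have := extendE_apply hN hF h.1 0 w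
    simpa using this

/-- The orbit–stabiliser count on frames. -/
theorem card_comm (P : Subgroup (V ≃ₗ[F] V)) (hPf : ∀ g ∈ P, ∀ x y, f (g x) (g y) = f x y) (FR : (ι → V) → Prop)
    (hFR : ∀ g ∈ P, (∀ x, g (N x) = N (g x)) → FR (fun i => g (u i)))
    (htr : ∀ u', FR u' → ∃ g ∈ P, (∀ x, g (N x) = N (g x)) ∧ ∀ i, g (u i) = u' i) :
    Nat.card {g : V ≃ₗ[F] V // g ∈ P ∧ ∀ x, g (N x) = N (g x)} =
      Nat.card {u' // FR u'} *
        Nat.card {g : V ≃ₗ[F] V // g ∈ P ∧ (∀ i, g (u i) = u i) ∧ ∀ i, g (N (u i)) = N (u i)} := by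
  choose sec hsP hsN hsu using fun u' : {u' // FR u'} => htr u'.1 u'.2
  rw [← Nat.card_prod]
  let fr : {g : V ≃ₗ[F] V // g ∈ P ∧ ∀ x, g (N x) = N (g x)} → {u' // FR u'} := fun g =>
    ⟨fun i => g.1 (u i), hFR _ g.2.1 g.2.2⟩
  refine Nat.card_congr
    { toFun := fun g => (fr g, ⟨(sec (fr g))⁻¹ * g.1, P.mul_mem (P.inv_mem (hsP _)) g.2.1, fun i => ?_, fun i => ?_⟩)
      invFun := fun p => ⟨sec p.1 * p.2.1, P.mul_mem (hsP _) p.2.2.1, fun x => ?_⟩
      left_inv := fun g => Subtype.ext (mul_inv_cancel_left _ _)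
      right_inv := fun p => ?_ }
  · show (sec (fr g)).symm (g.1 (u i)) = u i
    rw [LinearEquiv.symm_apply_eq, hsu]
  · show (sec (fr g)).symm (g.1 (N (u i))) = N (u i)
    rw [LinearEquiv.symm_apply_eq, hsN, hsu, g.2.2]
  · show sec p.1 (p.2.1 (N x)) = N (sec p.1 (p.2.1 x))
    rw [comm_of_fix hN hF (hPf _ p.2.2.1) p.2.2.2.1 p.2.2.2.2, hsN]
  · have e : fr ⟨sec p.1 * p.2.1, P.mul_mem (hsP _) p.2.2.1, fun x => by
        show sec p.1 (p.2.1 (N x)) = N (sec p.1 (p.2.1 x))
        rw [comm_of_fix hN hF (hPf _ p.2.2.1) p.2.2.2.1 p.2.2.2.2, hsN]⟩ = p.1 :=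
      Subtype.ext (funext fun i => by
        show sec p.1 (p.2.1 (u i)) = p.1.1 i
        rw [p.2.2.2.1, hsu])
    refine Prod.ext e (Subtype.ext ?_)
    simp only [e, inv_mul_cancel_left]

omit hN hF in
/-- The matrices preserving the normal shape. -/
abbrev Shape (F : Type*) [Field F] (σ : ι → ι) :=
  {A : ι → ι → F // ∀ i k, ∑ j, A i j * A k (σ j) = if k = σ i then 1 else 0}

theorem frame_change (A : Shape F σ) :
    Frame f N σ (fun i => ∑ j, A.1 i j • u j) ∧ (∀ i, N (∑ j, A.1 i j • u j) = ∑ j, A.1 i j • N (u j)) := by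
  have hw : ∀ i, N (∑ j, A.1 i j • u j) = ∑ j, A.1 i j • N (u j) := fun i => by simp [map_sum]
  refine ⟨⟨hF.invol, fun i k => ?_, fun i k => ?_, fun x hx => hF.rad x fun j => ?_⟩, hw⟩
  · have hd : ∀ l, f (∑ j, A.1 i j • u j) (N (u l)) = A.1 i (σ l) := fun l => by
      simp only [map_sum, map_smul, LinearMap.sum_apply, LinearMap.smul_apply, hF.dual, smul_eq_mul, mul_ite, mul_one,
        mul_zero]
      rw [Finset.sum_eq_single (σ l)]
      · rw [if_pos (hF.invol l).symm]
      · intro b _ hb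
        exact if_neg fun h => hb (by rw [h, hF.invol b])
      · simp
    rw [hw, ← A.2 i k, map_sum]
    refine (Finset.sum_equiv (Function.Involutive.toPerm σ hF.invol) (by simp) fun j _ => ?_).symm
    rw [Function.Involutive.coe_toPerm, map_smul, hd, hF.invol j, smul_eq_mul, mul_comm]
  · simp [map_sum, hF.orth]
  · classical
    let M : Matrix ι ι F := Matrix.of A.1
    let B : Matrix ι ι F := Matrix.of fun j k => A.1 (σ k) (σ j)
    have hMB : M * B = 1 := Matrix.ext fun i k => by
      rw [Matrix.mul_apply, Matrix.one_apply]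
      have h := A.2 i (σ k)
      simp only [hF.invol.injective.eq_iff] at h
      simpa [M, B, eq_comm] using h
    have hBM : B * M = 1 := mul_eq_one_comm.1 hMB
    have h0 : M.mulVec (fun l => f x (N (u l))) = 0 := funext fun i => by
      have := hx i
      rw [hw] at this
      simpa [M, Matrix.mulVec, dotProduct, map_sum] using this
    have := congrArg B.mulVec h0
    rw [Matrix.mulVec_mulVec, hBM, Matrix.one_mulVec, Matrix.mulVec_zero] at this
    exact congrFun this j

/-- Lift data. -/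
abbrev Lifts (f : V →ₗ[F] V →ₗ[F] F) (N : V →ₗ[F] V) (u : ι → V) (R : (ι → frameOrth f N u) → (ι → ι → F) → Prop) :=
  {p : (ι → frameOrth f N u) × (ι → ι → F) //
    (∀ i k, p.2 i k + p.2 k i + f (p.1 i : V) (p.1 k : V) = 0) ∧ R p.1 p.2}

/-- The frame with given data. -/
def lifted (N : V →ₗ[F] V) (σ : ι → ι) (u : ι → V) (A : ι → ι → F) (z : ι → V) (D : ι → ι → F) (i : ι) : V :=
  (∑ j, A i j • u j) + ∑ l, D i l • N (∑ j, A (σ l) j • u j) + z i

theorem lifted_frame (A : Shape F σ) {z : ι → frameOrth f N u} {D : ι → ι → F}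
    (h : ∀ i k, D i k + D k i + f (z i : V) (z k : V) = 0) :
    Frame f N σ (lifted N σ u A.1 (fun i => (z i : V)) D) ∧
      ∀ i, N (lifted N σ u A.1 (fun i => (z i : V)) D i) = N (∑ j, A.1 i j • u j) := by
  obtain ⟨hv, hvw⟩ := frame_change hN hF A
  have hz : ∀ i, N (z i : V) = 0 := fun i => hF.rad _ (mem_frameOrth.1 (z i).2).2
  have hzu : ∀ i j, f (z i : V) (∑ l, A.1 j l • u l) = 0 := fun i j => by
    simp [map_sum, (mem_frameOrth.1 (z i).2).1]
  have hzw : ∀ i j, f (z i : V) (N (∑ l, A.1 j l • u l)) = 0 := fun i j => by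
    simp [map_sum, (mem_frameOrth.1 (z i).2).2]
  set v : ι → V := fun i => ∑ j, A.1 i j • u j with hv'
  have hl : lifted N σ u A.1 (fun i => (z i : V)) D = fun i => v i + ∑ l, D i l • N (v (σ l)) + (z i : V) := rfl
  rw [hl]
  have hNl : ∀ i, N (v i + ∑ l, D i l • N (v (σ l)) + (z i : V)) = N (v i) := fun i => by
    simp [map_sum, hN.sq, hz]
  have hzu' : ∀ i j, f (z i : V) (v j) = 0 := hzu
  have hzw' : ∀ i j, f (z i : V) (N (v j)) = 0 := hzw
  refine ⟨⟨hF.invol, fun i k => ?_, fun i k => ?_, fun x hx => hv.rad x fun i => by rw [← hNl]; exact hx i⟩, hNl⟩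
  · rw [hNl]
    simp [map_sum, hN.nn, hv.dual, hzw']
  · have e1 : ∀ i k, f (v i) (z k : V) = 0 := fun i k => by rw [hN.symm, hzu']
    have e2 : ∀ i k, f (N (v i)) (z k : V) = 0 := fun i k => by rw [hN.symm, hzw']
    simp only [map_add, map_sum, map_smul, LinearMap.add_apply, LinearMap.sum_apply, LinearMap.smul_apply, hv.orth,
      hN.nn, hzu', hzw', e1, e2, smul_eq_mul, mul_zero, Finset.sum_const_zero, zero_add, add_zero]
    simp only [hN.symm (N (v _)) (v _), hv.dual, mul_ite, mul_one, mul_zero, hF.invol.injective.eq_iff,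
      Finset.sum_ite_eq', Finset.mem_univ, if_true]
    linear_combination h i k

theorem lifted_bijective :
    Function.Bijective (fun p : Shape F σ × {q : (ι → frameOrth f N u) × (ι → ι → F) //
        ∀ i k, q.2 i k + q.2 k i + f (q.1 i : V) (q.1 k : V) = 0} =>
      (⟨lifted N σ u p.1.1 (fun i => (p.2.1.1 i : V)) p.2.1.2, (lifted_frame hN hF p.1 p.2.2).1⟩ :
        {u' // Frame f N σ u'})) := by
  constructor
  · rintro ⟨A, ⟨⟨z, D⟩, hq⟩⟩ ⟨A', ⟨⟨z', D'⟩, hq'⟩⟩ e
    have e' : ∀ i, lifted N σ u A.1 (fun i => (z i : V)) D i = lifted N σ u A'.1 (fun i => (z' i : V)) D' i :=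
      fun i => congrFun (congrArg Subtype.val e) i
    have hA : A = A' := Subtype.ext (funext fun i => funext fun l => by
      have h1 := congrArg (fun y => f y (N (u (σ l)))) (congrArg N (e' i))
      have h3 := congrArg (fun y => f y (N (u (σ l)))) (e' i)
      simp [lifted, map_sum, hN.nn, hF.dual, (mem_frameOrth.1 (z i).2).2, (mem_frameOrth.1 (z' i).2).2,
        hF.invol.injective.eq_iff] at h3
      exact h3)
    subst hA
    obtain ⟨hv, -⟩ := frame_change hN hF A
    have hzv : ∀ (z : ι → frameOrth f N u) i j, f (z i : V) (∑ l, A.1 j l • u l) = 0 := fun z i j => by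
      simp [map_sum, (mem_frameOrth.1 (z i).2).1]
    set v : ι → V := fun i => ∑ j, A.1 i j • u j with hv'
    have key : ∀ (D : ι → ι → F) (z : ι → frameOrth f N u) i l,
        f (v i + ∑ l, D i l • N (v (σ l)) + (z i : V)) (v l) = D i l := fun D z i l => by
      have hz : f (z i : V) (v l) = 0 := hzv z i l
      simp only [map_add, map_sum, map_smul, LinearMap.add_apply, LinearMap.sum_apply, LinearMap.smul_apply, hz,
        hv.orth, hN.symm (N (v _)) (v _), hv.dual, smul_eq_mul, mul_ite, mul_one, mul_zero, zero_add, add_zero,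
        hF.invol.injective.eq_iff, Finset.sum_ite_eq', Finset.mem_univ, if_true]
    have hD : D = D' := funext fun i => funext fun l => by
      have h3 : f (v i + ∑ l, D i l • N (v (σ l)) + (z i : V)) (v l) =
          f (v i + ∑ l, D' i l • N (v (σ l)) + (z' i : V)) (v l) := congrArg (fun y => f y (v l)) (e' i)
      rwa [key, key] at h3
    subst hD
    refine Prod.ext rfl (Subtype.ext (Prod.ext (funext fun i => Subtype.ext ?_) rfl))
    exact add_left_cancel (e' i)
  · rintro ⟨u', hu'⟩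
    have hA : ∀ i, N (u' i) = ∑ j, f (u' i) (N (u (σ j))) • N (u j) := fun i => N_eq hN hF _
    let A : Shape F σ := ⟨fun i j => f (u' i) (N (u (σ j))), fun i k => by
      rw [← hu'.dual i k, hA k, map_sum]
      refine (Finset.sum_equiv (Function.Involutive.toPerm σ hF.invol) (by simp) fun j _ => ?_)
      simp [hF.invol j, mul_comm]⟩
    obtain ⟨hv, hvw⟩ := frame_change hN hF A
    set v : ι → V := fun i => ∑ j, A.1 i j • u j with hv'
    have hw : ∀ i, N (v i) = N (u' i) := fun i => by rw [hA]; exact hvw i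
    have hy : ∀ i j, f (u' i - v i) (N (u j)) = 0 := fun i j => by
      rw [map_sub, LinearMap.sub_apply]
      simp only [hv', A, map_sum, map_smul, LinearMap.sum_apply, LinearMap.smul_apply, hF.dual, smul_eq_mul, mul_ite,
        mul_one, mul_zero]
      rw [Finset.sum_eq_single (σ j)]
      · rw [if_pos (hF.invol j).symm, hF.invol j, sub_self]
      · intro b _ hb
        exact if_neg fun h => hb (by rw [h, hF.invol b])
      · simp
    let z : ι → frameOrth f N u := fun i => ⟨projL f N σ u (u' i - v i), projL_mem hN hF _⟩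
    have hr : ∀ i, u' i - v i - (z i : V) ∈ LinearMap.range N := fun i => by
      show u' i - v i - proj f N σ u (u' i - v i) ∈ _
      rw [proj, sub_sub_cancel, comb_apply]
      simp only [hy, zero_smul, Finset.sum_const_zero, zero_add]
      exact Submodule.sum_mem _ fun l _ => Submodule.smul_mem _ _ ⟨_, rfl⟩
    have hzv : ∀ i j, f (z i : V) (v j) = 0 := fun i j => by
      simp [hv', map_sum, (mem_frameOrth.1 (z i).2).1]
    let D : ι → ι → F := fun i l => f (u' i) (v l)
    have hrep : ∀ i, v i + ∑ l, D i l • N (v (σ l)) + (z i : V) = u' i := fun i => by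
      obtain ⟨x, hx⟩ := hr i
      have h1 := N_eq hN hv x
      have h3 : ∀ l, f x (N (v l)) = D i l := fun l => by
        rw [← hN.adj, hx]
        simp only [map_sub, LinearMap.sub_apply, hzv, hv.orth, sub_zero, D]
      simp only [h3] at h1
      rw [hx] at h1
      have h4 : ∑ i_1, D i (σ i_1) • N (v i_1) = ∑ l, D i l • N (v (σ l)) :=
        Finset.sum_equiv (Function.Involutive.toPerm σ hF.invol) (by simp) fun j _ => by simp [hF.invol j]
      rw [h4] at h1
      rw [← h1]
      abel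
    refine ⟨(A, ⟨(z, D), fun i k => ?_⟩), Subtype.ext (funext hrep)⟩
    have h := hu'.orth i k
    rw [← hrep i, ← hrep k] at h
    have hzw : ∀ i j, f (z i : V) (N (v j)) = 0 := fun i j => by
      simp [hv', map_sum, (mem_frameOrth.1 (z i).2).2]
    have e1 : ∀ i k, f (v i) (z k : V) = 0 := fun i k => by rw [hN.symm, hzv]
    have e2 : ∀ i k, f (N (v i)) (z k : V) = 0 := fun i k => by rw [hN.symm, hzw]
    simp only [map_add, map_sum, map_smul, LinearMap.add_apply, LinearMap.sum_apply, LinearMap.smul_apply, hv.orth,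
      hN.nn, hzv, hzw, e1, e2, smul_eq_mul, mul_zero, Finset.sum_const_zero, zero_add, add_zero] at h
    simp only [hN.symm (N (v _)) (v _), hv.dual, mul_ite, mul_one, mul_zero, hF.invol.injective.eq_iff,
      Finset.sum_ite_eq', Finset.mem_univ, if_true] at h
    linear_combination h

theorem card_frames :
    Nat.card {u' // Frame f N σ u'} = Nat.card (Shape F σ) * Nat.card {q : (ι → frameOrth f N u) × (ι → ι → F) //
      ∀ i k, q.2 i k + q.2 k i + f (q.1 i : V) (q.1 k : V) = 0} := by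
  rw [← Nat.card_prod]
  exact (Nat.card_congr (Equiv.ofBijective _ (lifted_bijective hN hF))).symm

theorem Q_lifted {Q : QuadraticForm F V} (hQf : ∀ x y, polar Q x y = f x y) (hQN : ∀ v, Q (N v) = f v (N v))
    (hu0 : ∀ i, Q (u i) = 0) (A : Shape F σ) (z : ι → frameOrth f N u) (D : ι → ι → F) (i : ι) :
    Q (lifted N σ u A.1 (fun i => (z i : V)) D i) =
      D i i + (∑ l, if σ l = l then D i l ^ 2 else 0) + Q (z i : V) := by
  classical
  obtain ⟨hv, hvw⟩ := frame_change hN hF A
  have hQsum : ∀ (a : ι → F) (S : Finset ι) (w : ι → V), (∀ p q, f (w p) (w q) = 0) →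
      Q (∑ j ∈ S, a j • w j) = ∑ j ∈ S, a j * a j * Q (w j) := by
    intro a S w hw
    induction S using Finset.induction_on with
    | empty => simp
    | insert j S hj ih =>
      rw [Finset.sum_insert hj, Finset.sum_insert hj, QuadraticMap.map_add (⇑Q), ih, hQf, QuadraticMap.map_smul]
      simp [map_sum, hw]
  set v : ι → V := fun i => ∑ j, A.1 i j • u j with hv'
  have hv0 : ∀ i, Q (v i) = 0 := fun i => by
    simp only [hv']
    rw [hQsum _ _ u hF.orth]
    simp [hu0]
  have hQD : Q (∑ l, D i l • N (v (σ l))) = ∑ l, if σ l = l then D i l ^ 2 else 0 := by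
    rw [hQsum _ _ (fun l => N (v (σ l))) fun p q => hN.nn _ _]
    refine Finset.sum_congr rfl fun l _ => ?_
    rw [hQN, hv.dual, hF.invol]
    by_cases h : σ l = l
    · rw [if_pos h, if_pos h, mul_one, pow_two]
    · rw [if_neg h, if_neg h, mul_zero]
  show Q (v i + ∑ l, D i l • N (v (σ l)) + (z i : V)) = _
  have hz1 : ∀ j, f (v j) (z i : V) = 0 := fun j => by
    rw [hN.symm]; simp [hv', map_sum, (mem_frameOrth.1 (z i).2).1]
  have hz2 : ∀ j, f (N (v j)) (z i : V) = 0 := fun j => by
    rw [hN.symm]; simp [hv', map_sum, (mem_frameOrth.1 (z i).2).2]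
  rw [QuadraticMap.map_add (⇑Q) (v i + _), QuadraticMap.map_add (⇑Q) (v i), hv0, hQD, hQf, hQf]
  simp only [map_add, map_sum, map_smul, LinearMap.add_apply, LinearMap.sum_apply, LinearMap.smul_apply, hz1, hz2,
    smul_eq_mul, mul_zero, Finset.sum_const_zero, add_zero, hv.dual, mul_ite, mul_one, hF.invol.injective.eq_iff,
    Finset.sum_ite_eq', Finset.mem_univ, if_true, zero_add]
  ring

theorem card_frames_orth {Q : QuadraticForm F V} (hQf : ∀ x y, polar Q x y = f x y)
    (hQN : ∀ v, Q (N v) = f v (N v)) (hu0 : ∀ i, Q (u i) = 0) :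
    Nat.card {u' // Frame f N σ u' ∧ ∀ i, Q (u' i) = 0} = Nat.card (Shape F σ) *
      Nat.card {q : (ι → frameOrth f N u) × (ι → ι → F) //
        (∀ i k, q.2 i k + q.2 k i + f (q.1 i : V) (q.1 k : V) = 0) ∧
        ∀ i, q.2 i i + (∑ l, if σ l = l then q.2 i l ^ 2 else 0) + Q (q.1 i : V) = 0} := by
  rw [← Nat.card_prod]
  refine (Nat.card_congr (Equiv.ofBijective (fun p => ⟨lifted N σ u p.1.1 (fun i => (p.2.1.1 i : V)) p.2.1.2,
    (lifted_frame hN hF p.1 p.2.2.1).1, fun i => by rw [Q_lifted hN hF hQf hQN hu0]; exact p.2.2.2 i⟩) ⟨?_, ?_⟩)).symm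
  · rintro ⟨A, q, hq⟩ ⟨A', q', hq'⟩ e
    have := (lifted_bijective hN hF).1 (a₁ := (A, ⟨q, hq.1⟩)) (a₂ := (A', ⟨q', hq'.1⟩))
      (Subtype.ext (show lifted N σ u A.1 (fun i => (q.1 i : V)) q.2 = lifted N σ u A'.1 (fun i => (q'.1 i : V)) q'.2
        from congrArg Subtype.val e))
    simp only [Prod.mk.injEq, Subtype.mk.injEq] at this
    simp [this.1, this.2]
  · rintro ⟨u', hu', h0⟩
    obtain ⟨⟨A, q, hq⟩, e⟩ := (lifted_bijective hN hF).2 ⟨u', hu'⟩
    have e' : lifted N σ u A.1 (fun i => (q.1 i : V)) q.2 = u' := congrArg Subtype.val e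
    exact ⟨(A, ⟨q, hq, fun i => by rw [← Q_lifted hN hF hQf hQN hu0 A, e']; exact h0 i⟩), Subtype.ext e'⟩

end CfsgLib.InvTwo
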